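import Mathlib
import Cfsg.Agent.SpGeom.Parabolic

/-!
Tools for the minimal degree of `PSp_2m(q)`: annihilators for a pairing of a finite abelian group, the
radical of a point stabiliser, and transitivity lemmas.
-/

set_option autoImplicit false
set_option linter.style.haveILetI false

namespace CfsgLib.MinIndexSp

section Pairing

variable {E : Type*} [AddCommGroup E] [Fintype E] (P : E → AddChar E ℂ)

/-- The elements pairing trivially with all of `S`. -/
def annih (hadd : ∀ a b x, P (a + b) x = P a x * P b x) (S : AddSubgroup E) : AddSubgroup E where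
  carrier := {a | ∀ s ∈ S, P a s = 1}
  zero_mem' := by
    intro s _
    have h := hadd 0 0 s
    rw [add_zero] at h
    have hne : P 0 s ≠ 0 := ((P 0).val_isUnit s).ne_zero
    exact (mul_eq_left₀ hne).mp h.symm
  add_mem' := fun {a b} ha hb s hs => by rw [hadd, ha s hs, hb s hs, one_mul]
  neg_mem' := fun {a} ha s hs => by
    have h := hadd a (-a) s
    rw [add_neg_cancel, ha s hs, one_mul] at h
    have h0 := hadd 0 0 s
    rw [add_zero] at h0
    rw [← h]
    have hne : P 0 s ≠ 0 := ((P 0).val_isUnit s).ne_zero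
    exact (mul_eq_left₀ hne).mp h0.symm

variable {P}

omit [Fintype E] in
theorem mem_annih {hadd : ∀ a b x, P (a + b) x = P a x * P b x} {S : AddSubgroup E} {a : E} :
    a ∈ annih P hadd S ↔ ∀ s ∈ S, P a s = 1 := Iff.rfl

theorem card_annih_mul (hadd : ∀ a b x, P (a + b) x = P a x * P b x)
    (hnd : ∀ s : E, s ≠ 0 → ∃ a, P a s ≠ 1) (S : AddSubgroup E) :
    Nat.card (annih P hadd S) * Nat.card S = Nat.card E := by
  classical
  let T : Finset E := Finset.univ.filter (· ∈ S)
  let D : Finset E := Finset.univ.filter (· ∈ annih P hadd S)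
  have h1 : ∀ a : E, (∑ s ∈ T, P a s) = if a ∈ D then (T.card : ℂ) else 0 := by
    intro a
    by_cases ha : a ∈ D
    · rw [if_pos ha]
      have ha' := mem_annih.mp (Finset.mem_filter.mp ha).2
      rw [Finset.sum_congr rfl (fun s hs => ha' s (Finset.mem_filter.mp hs).2), Finset.sum_const,
        nsmul_eq_mul, mul_one]
    · rw [if_neg ha]
      have hna : ¬ a ∈ annih P hadd S := fun h => ha (Finset.mem_filter.mpr ⟨Finset.mem_univ _, h⟩)
      rw [mem_annih] at hna
      push Not at hna
      obtain ⟨t, ht, hPt⟩ := hna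
      have hshift : ∑ s ∈ T, P a s = P a t * ∑ s ∈ T, P a s := by
        rw [Finset.mul_sum]
        refine Finset.sum_nbij' (fun s => s - t) (fun s => s + t) ?_ ?_ (fun s _ => sub_add_cancel s t)
          (fun s _ => add_sub_cancel_right s t) (fun s _ => ?_)
        · intro s hs
          exact Finset.mem_filter.mpr ⟨Finset.mem_univ _, sub_mem (Finset.mem_filter.mp hs).2 ht⟩
        · intro s hs
          exact Finset.mem_filter.mpr ⟨Finset.mem_univ _, add_mem (Finset.mem_filter.mp hs).2 ht⟩
        · rw [← (P a).map_add_eq_mul, add_sub_cancel]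
      have h0 : (P a t - 1) * ∑ s ∈ T, P a s = 0 := by rw [sub_mul, one_mul, ← hshift, sub_self]
      exact (mul_eq_zero.mp h0).resolve_left (sub_ne_zero.mpr hPt)
  have h2 : ∀ s : E, (∑ a : E, P a s) = if s = 0 then (Fintype.card E : ℂ) else 0 := by
    intro s
    by_cases hs : s = 0
    · rw [if_pos hs, hs]
      simp
    · rw [if_neg hs]
      obtain ⟨b, hb⟩ := hnd s hs
      have hshift : ∑ a : E, P a s = P b s * ∑ a : E, P a s := by
        rw [Finset.mul_sum]
        exact Fintype.sum_equiv (Equiv.subRight b) _ _ fun a => by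
          rw [Equiv.subRight_apply, ← hadd, add_sub_cancel]
      have h0 : (P b s - 1) * ∑ a : E, P a s = 0 := by rw [sub_mul, one_mul, ← hshift, sub_self]
      exact (mul_eq_zero.mp h0).resolve_left (sub_ne_zero.mpr hb)
  have h3 : ((D.card * T.card : ℕ) : ℂ) = (Fintype.card E : ℂ) := by
    have e1 : ∑ a : E, ∑ s ∈ T, P a s = (D.card : ℂ) * T.card := by
      rw [Finset.sum_congr rfl (fun a _ => h1 a), Finset.sum_ite_mem, Finset.univ_inter, Finset.sum_const,
        nsmul_eq_mul]
    have e2 : ∑ s ∈ T, ∑ a : E, P a s = (Fintype.card E : ℂ) := by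
      rw [Finset.sum_congr rfl (fun s _ => h2 s), Finset.sum_ite_eq', if_pos]
      exact Finset.mem_filter.mpr ⟨Finset.mem_univ _, zero_mem S⟩
    rw [Nat.cast_mul, ← e1, Finset.sum_comm, e2]
  have h4 : D.card * T.card = Fintype.card E := Nat.cast_inj.mp h3
  rw [Nat.card_eq_fintype_card, Nat.card_eq_fintype_card, Nat.card_eq_fintype_card, Fintype.card_subtype,
    Fintype.card_subtype]
  exact h4

theorem eq_annih_annih (hadd : ∀ a b x, P (a + b) x = P a x * P b x)
    (hnd : ∀ s : E, s ≠ 0 → ∃ a, P a s ≠ 1) (hsymm : ∀ a b, P a b = 1 → P b a = 1) (S : AddSubgroup E) :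
    annih P hadd (annih P hadd S) = S := by
  have hle : S ≤ annih P hadd (annih P hadd S) := fun s hs =>
    mem_annih.mpr fun a ha => hsymm _ _ (mem_annih.mp ha s hs)
  have h1 := card_annih_mul hadd hnd S
  have h2 := card_annih_mul hadd hnd (annih P hadd S)
  have hpos : 0 < Nat.card (annih P hadd S) := Nat.card_pos
  have hc : Nat.card (annih P hadd (annih P hadd S)) = Nat.card S := by
    rw [← h1, mul_comm (Nat.card (annih P hadd S))] at h2
    exact Nat.eq_of_mul_eq_mul_right hpos h2
  exact (AddSubgroup.eq_of_le_of_card_ge hle hc.le).symm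

end Pairing

open Matrix CfsgLib.SpGeom

variable {F : Type*} [Field F] {m : ℕ}

local notation "V" => (Fin m ⊕ Fin m → F)
local notation "Sp" => Matrix.symplecticGroup (Fin m) F
local notation "f" => Cfsg.sympForm m F
local notation "mat" A:max => ((A : Sp) : Matrix (Fin m ⊕ Fin m) (Fin m ⊕ Fin m) F)

/-- The elements of the radical of the stabiliser of the line through `v`. -/
def rho (v u : V) (c : F) : Sp := tv (u + v) 1 * tv u (-1) * tv v (c - 1)

theorem rho_mulVec {v u : V} (h : f u v = 0) (c : F) (x : V) :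
    mat (rho v u c) *ᵥ x = x + f x u • v + f x v • u + (c * f x v) • v := by
  have h' : f v u = 0 := by rw [form_skew, h, neg_zero]
  rw [rho, coe_mul', ← Matrix.mulVec_mulVec, coe_mul', ← Matrix.mulVec_mulVec]
  simp only [tv_mulVec, form_add_left, form_smul_left, form_add_right, form_self, h', h, one_mul,
    mul_zero, add_zero, neg_mul]
  module

theorem tv_eq_rho (v : V) (c : F) : tv v c = rho v 0 c := ext_mulVec fun x => by
  rw [rho_mulVec (form_zero_left v), tv_mulVec, form_zero_right]
  module

theorem rho_smul_self (v : V) (a c : F) : rho v (a • v) c = tv v (c + 2 * a) := ext_mulVec fun x => by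
  rw [rho_mulVec (by rw [form_smul_left, form_self, mul_zero]), tv_mulVec, form_smul_right]
  module

theorem rho_mul {v u u' : V} (h : f u v = 0) (h' : f u' v = 0) (c c' : F) :
    rho v u c * rho v u' c' = rho v (u + u') (c + c' + f u' u) := by
  have hs : f (u + u') v = 0 := by rw [form_add_left, h, h', add_zero]
  have hv : f v u = 0 := by rw [form_skew, h, neg_zero]
  refine ext_mulVec fun x => ?_
  rw [coe_mul', ← Matrix.mulVec_mulVec, rho_mulVec h', rho_mulVec hs, rho_mulVec h]
  simp only [form_add_left, form_smul_left, form_add_right, form_self, hv, h', mul_zero, add_zero]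
  module

theorem rho_zero (v : V) : rho v 0 (0 : F) = 1 := by rw [← tv_eq_rho, tv_zero]

theorem rho_inv {v u : V} (h : f u v = 0) (c : F) : (rho v u c)⁻¹ = rho v (-u) (-c) := by
  have h' : f (-u) v = 0 := by rw [← neg_one_smul F u, form_smul_left, h, mul_zero]
  refine inv_eq_of_mul_eq_one_right ?_
  rw [rho_mul h h', show f (-u) u = 0 by rw [← neg_one_smul F u, form_smul_left, form_self, mul_zero],
    add_neg_cancel, add_neg_cancel, add_zero, rho_zero]

theorem rho_conj (g : Sp) (v u : V) (c : F) :
    g * rho v u c * g⁻¹ = rho (mat g *ᵥ v) (mat g *ᵥ u) c := by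
  rw [rho, rho, ← Matrix.mulVec_add, ← tv_conj, ← tv_conj, ← tv_conj]
  group

theorem rho_smul_left {v u : V} (h : f u v = 0) (l c : F) :
    rho (l • v) u c = rho v (l • u) (l ^ 2 * c) := by
  refine ext_mulVec fun x => ?_
  rw [rho_mulVec (by rw [form_smul_right, h, mul_zero]), rho_mulVec (by rw [form_smul_left, h, mul_zero]),
    form_smul_right, form_smul_right]
  module

theorem rho_comm {v u : V} (h : f u v = 0) (c d : F) : rho v u c * tv v d = tv v d * rho v u c := by
  rw [tv_eq_rho, rho_mul h (form_zero_left v), rho_mul (form_zero_left v) h, form_zero_left,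
    form_zero_right, add_zero, zero_add, add_zero, add_zero, add_comm c]

/-- Conjugating inside the radical only changes the central coordinate. -/
theorem rho_conj_rho {v u w : V} (h : f u v = 0) (hw : f w v = 0) (c d : F) :
    rho v w d * rho v u c * (rho v w d)⁻¹ = rho v u (c + 2 * f u w) := by
  have hu : f (-w) v = 0 := by rw [← neg_one_smul F w, form_smul_left, hw, mul_zero]
  have hs : f (w + u) v = 0 := by rw [form_add_left, hw, h, add_zero]
  rw [rho_inv hw, rho_mul hw h, rho_mul hs hu, show w + u + -w = u by abel]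
  congr 1
  rw [← neg_one_smul F w, form_smul_left, form_add_right, form_self, form_skew u w]
  ring

/-- The commutator identity used when the radical acts through its centre. -/
theorem rho_commutator {v w z : V} (hvw : f v w = 0) (hzw : f z w = 1) (hzv : f z v = 0)
    (t c s d : F) :
    rho v (t • z) c * rho w (s • v) d * (rho v (t • z) c)⁻¹ * (rho w (s • v) d)⁻¹ =
      rho v ((-(d * t)) • w) (d * t ^ 2 - 2 * t * s) := by
  have hwv : f w v = 0 := by rw [form_skew, hvw, neg_zero]
  have hvz : f v z = 0 := by rw [form_skew, hzv, neg_zero]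
  have hwz : f w z = -1 := by rw [form_skew, hzw]
  have hu : f (t • z) v = 0 := by rw [form_smul_left, hzv, mul_zero]
  have hb : f (s • v) w = 0 := by rw [form_smul_left, hvw, mul_zero]
  have e1 : mat (rho v (t • z) c) *ᵥ w = w + (-t) • v := by
    rw [rho_mulVec hu, form_smul_right, hwz, hwv]
    module
  have e2 : mat (rho v (t • z) c) *ᵥ (s • v) = s • v := by
    rw [rho_mulVec hu, form_smul_left, form_smul_left, form_smul_right, hvz, form_self]
    module
  rw [rho_conj, e1, e2, mul_inv_eq_iff_eq_mul]
  have hb' : f (s • v) (w + (-t) • v) = 0 := by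
    rw [form_smul_left, form_add_right, form_smul_right, hvw, form_self, mul_zero, add_zero, mul_zero]
  have hc' : f ((-(d * t)) • w) v = 0 := by rw [form_smul_left, hwv, mul_zero]
  refine ext_mulVec fun x => ?_
  rw [rho_mulVec hb', coe_mul', ← Matrix.mulVec_mulVec, rho_mulVec hb, rho_mulVec hc']
  simp only [form_add_left, form_smul_left, form_add_right, form_smul_right, form_self, hvw, hwv,
    mul_zero, add_zero]
  module

section Transitive

/-- Two perpendicular independent vectors as a frame. -/
theorem exists_move_two {v a v' a' : V} (hli : LinearIndependent F ![v, a]) (h : f a v = 0)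
    (hli' : LinearIndependent F ![v', a']) (h' : f a' v' = 0) :
    ∃ g : Sp, mat g *ᵥ v = v' ∧ mat g *ᵥ a = a' := by
  have ho : ∀ (p r : V), f r p = 0 → ∀ i j : Fin 2, f (![p, r] i) (![p, r] j) = 0 := by
    intro p r hpr i j
    fin_cases i <;> fin_cases j <;> simp [form_self, hpr, form_skew r p]
  obtain ⟨g, hg⟩ := exists_move_frame (⟨![v, a], hli, ho v a h⟩ : Frame m 2 F)
    (⟨![v', a'], hli', ho v' a' h'⟩ : Frame m 2 F)
  exact ⟨g, hg 0, hg 1⟩

theorem exists_move_three {v a b v' a' b' : V} (hli : LinearIndependent F ![v, a, b]) (h1 : f a v = 0)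
    (h2 : f b v = 0) (h3 : f b a = 0) (hli' : LinearIndependent F ![v', a', b']) (h1' : f a' v' = 0)
    (h2' : f b' v' = 0) (h3' : f b' a' = 0) :
    ∃ g : Sp, mat g *ᵥ v = v' ∧ mat g *ᵥ a = a' ∧ mat g *ᵥ b = b' := by
  have ho : ∀ (p r t : V), f r p = 0 → f t p = 0 → f t r = 0 →
      ∀ i j : Fin 3, f (![p, r, t] i) (![p, r, t] j) = 0 := by
    intro p r t e1 e2 e3 i j
    fin_cases i <;> fin_cases j <;> simp [form_self, e1, e2, e3, form_skew r p, form_skew t p, form_skew t r]
  obtain ⟨g, hg⟩ := exists_move_frame (⟨![v, a, b], hli, ho v a b h1 h2 h3⟩ : Frame m 3 F)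
    (⟨![v', a', b'], hli', ho v' a' b' h1' h2' h3'⟩ : Frame m 3 F)
  exact ⟨g, hg 0, hg 1, hg 2⟩

theorem li_two {v a : V} (hv : v ≠ 0) (ha : a ∉ Submodule.span F {v}) : LinearIndependent F ![v, a] := by
  rw [LinearIndependent.pair_iff' hv]
  exact fun l hl => ha (Submodule.mem_span_singleton.mpr ⟨l, hl⟩)

theorem li_two_smul {v a : V} {l k : F} (hl : l ≠ 0) (hk : k ≠ 0) (hli : LinearIndependent F ![v, a]) :
    LinearIndependent F ![l • v, k • a] := by
  rw [LinearIndependent.pair_iff] at hli ⊢
  intro s t hst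
  rw [smul_smul, smul_smul] at hst
  obtain ⟨h1, h2⟩ := hli _ _ hst
  exact ⟨(mul_eq_zero.mp h1).resolve_right hl, (mul_eq_zero.mp h2).resolve_right hk⟩

end Transitive

end CfsgLib.MinIndexSp
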