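import Cfsg.Agent.MinIndexSp.Basic
import Cfsg.Agent.SpGeom.Order
import Cfsg.Agent.MinIndexSpTwo.Orbit

/-!
If a whole transvection group of `Sp_2m(q)` fixes a point, the action has at least as many points as the
projective space.
-/

set_option autoImplicit false
set_option linter.style.haveILetI false
set_option linter.unusedSectionVars false

namespace CfsgLib.MinIndexSp

open Matrix CfsgLib.SpGeom

open CfsgLib.MinIndexSpTwo (orth mem_orth card_orth card_sub)

variable {F : Type*} [Field F] [Fintype F] {m : ℕ}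

local notation "V" => (Fin m ⊕ Fin m → F)
local notation "Sp" => Matrix.symplecticGroup (Fin m) F
local notation "f" => Cfsg.sympForm m F
local notation "mat" A:max => ((A : Sp) : Matrix (Fin m ⊕ Fin m) (Fin m ⊕ Fin m) F)

variable {Ω : Type*} [MulAction ↥(Matrix.symplecticGroup (Fin m) F) Ω]

/-- The whole transvection group at `v` fixes `y`. -/
def Fixes (y : Ω) (v : Fin m ⊕ Fin m → F) : Prop := ∀ c : F, tv v c • y = y

/-- The image of a subspace. -/
def img (g : Sp) (W : Submodule F V) : Submodule F V := W.map (mat g).mulVecLin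

theorem mem_img {g : Sp} {W : Submodule F V} {x : V} : x ∈ img g W ↔ mat g⁻¹ *ᵥ x ∈ W := by
  refine ⟨?_, fun h => ⟨_, h, mulVec_inv g x⟩⟩
  rintro ⟨w, hw, rfl⟩
  rw [Matrix.mulVecLin_apply, inv_mulVec]
  exact hw

theorem mem_img_of_mem {g : Sp} {W : Submodule F V} {x : V} (h : x ∈ W) : mat g *ᵥ x ∈ img g W :=
  ⟨x, h, rfl⟩

theorem finrank_img (g : Sp) (W : Submodule F V) : Module.finrank F (img g W) = Module.finrank F W :=
  (Submodule.equivMapOfInjective _ (fun a b h => by
    rw [← inv_mulVec g a, ← inv_mulVec g b]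
    exact congrArg _ h) W).finrank_eq.symm

theorem form_inv (g : Sp) (x u : V) : f x (mat g *ᵥ u) = f (mat g⁻¹ *ᵥ x) u := by
  rw [← form_mulVec g (mat g⁻¹ *ᵥ x) u, mulVec_inv]

theorem img_orth (g : Sp) (W : Submodule F V) : orth (img g W) = img g (orth W) := by
  ext x
  rw [mem_img, mem_orth, mem_orth]
  constructor
  · intro h u hu
    rw [← form_inv]
    exact h _ (mem_img_of_mem hu)
  · intro h u hu
    rw [← mulVec_inv g u, form_inv]
    exact h _ (mem_img.mp hu)

theorem img_inf (g : Sp) (A B : Submodule F V) : img g (A ⊓ B) = img g A ⊓ img g B := by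
  ext x; simp [mem_img]

theorem img_eq_bot_iff (g : Sp) (W : Submodule F V) : img g W = ⊥ ↔ W = ⊥ := by
  rw [← Submodule.finrank_eq_zero, finrank_img, Submodule.finrank_eq_zero]

theorem img_eq_top_iff (g : Sp) (W : Submodule F V) : img g W = ⊤ ↔ W = ⊤ := by
  constructor
  · intro h
    ext x
    have : mat g *ᵥ x ∈ img g W := h ▸ Submodule.mem_top
    rw [mem_img, inv_mulVec] at this
    simp [this]
  · intro h
    ext x
    simp [mem_img, h]

theorem finrank_orth (W : Submodule F V) :
    Module.finrank F (orth W) + Module.finrank F W = 2 * m := by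
  have h := card_orth W
  rw [card_sub W, card_sub (orth W), ← pow_add] at h
  have := Nat.pow_right_injective (Fintype.one_lt_card (α := F)) h
  omega

theorem fixes_smul {y : Ω} {v : V} (h : Fixes y v) (g : Sp) : Fixes (g • y) (mat g *ᵥ v) := fun c => by
  rw [← tv_conj, mul_smul, mul_smul, inv_smul_smul, h c]

theorem fixes_smul_iff {y : Ω} {v : V} (g : Sp) : Fixes (g • y) v ↔ Fixes y (mat g⁻¹ *ᵥ v) := by
  constructor
  · intro h
    have := fixes_smul h g⁻¹
    rwa [inv_smul_smul] at this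
  · intro h
    have := fixes_smul h g
    rwa [mulVec_inv] at this

theorem fixes_scale {y : Ω} {v : V} (h : Fixes y v) (a : F) : Fixes y (a • v) := fun c => by
  rw [tv_smul]; exact h _

theorem fixes_zero (y : Ω) : Fixes y (0 : V) := fun c => by
  have : tv (0 : V) c = 1 := ext_mulVec fun z => by simp [tv_mulVec]
  rw [this, one_smul]

/-- Two non-perpendicular fixed vectors fix the whole line. -/
theorem fixes_line {y : Ω} {u w : V} (hu : Fixes y u) (hw : Fixes y w) (h : f w u ≠ 0) (b : F) :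
    Fixes y (w + b • u) := by
  have e : w + b • u = mat (tv u (b / f w u)) *ᵥ w := by
    rw [tv_mulVec, div_mul_cancel₀ _ h]
  have h2 := fixes_smul hw (tv u (b / f w u))
  rw [hu, ← e] at h2
  exact h2

theorem fixes_plane {y : Ω} {u w : V} (hu : Fixes y u) (hw : Fixes y w) (h : f w u ≠ 0) (a b : F) :
    Fixes y (a • u + b • w) := by
  by_cases hb : b = 0
  · rw [hb, zero_smul, add_zero]
    exact fixes_scale hu a
  · have e : a • u + b • w = b • (w + (a / b) • u) := by
      rw [smul_add, smul_smul, mul_div_cancel₀ _ hb, add_comm]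
    rw [e]
    exact fixes_scale (fixes_line hu hw h _) b

section Counting

variable [Fintype Ω]

theorem card_pairs' (hm : 1 ≤ m) : Nat.card {p : V × V // f p.1 p.2 = 1} =
    (Fintype.card F ^ (2 * m) - 1) * Fintype.card F ^ (2 * m - 1) := by
  obtain ⟨n, rfl⟩ : ∃ n, m = n + 1 := ⟨m - 1, by omega⟩
  rw [card_pairs, show 2 * (n + 1) - 1 = 2 * n + 1 by omega]

theorem card_pairs_in (W : Submodule F V) :
    Nat.card {p : W × W // f (p.1 : V) p.2 = 1} * Fintype.card F ≤ (Nat.card W - 1) * Nat.card W := by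
  classical
  let φ : W → (W →ₗ[F] F) := fun u =>
    { toFun := fun v => f (u : V) v
      map_add' := fun a b => form_add_right (u : V) a b
      map_smul' := fun a b => form_smul_right a (u : V) b }
  rw [Nat.card_congr (Equiv.subtypeProdEquivSigmaSubtype (fun u v : W => f (u : V) v = 1)), Nat.card_sigma,
    Finset.sum_mul]
  calc ∑ u : W, Nat.card {v : W // f (u : V) v = 1} * Fintype.card F
      ≤ ∑ u : W, (if u = 0 then 0 else Nat.card W) := by
        refine Finset.sum_le_sum fun u _ => ?_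
        by_cases hu : u = 0
        · rw [if_pos hu, hu]
          have : IsEmpty {v : W // f ((0 : W) : V) v = 1} :=
            ⟨fun v => zero_ne_one (α := F) (by rw [← form_zero_left (v.1 : V)]; exact v.2)⟩
          rw [Nat.card_of_isEmpty, zero_mul]
        · rw [if_neg hu]
          by_cases hφ : φ u = 0
          · have : IsEmpty {v : W // f (u : V) v = 1} :=
              ⟨fun v => zero_ne_one (α := F) ((LinearMap.congr_fun hφ v.1).symm.trans v.2)⟩
            rw [Nat.card_of_isEmpty, zero_mul]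
            exact Nat.zero_le _
          · exact (card_linear_fibre (φ u) hφ 1).le
    _ = (Nat.card W - 1) * Nat.card W := by
        rw [Finset.sum_ite, Finset.sum_const_zero, zero_add, Finset.sum_const, smul_eq_mul,
          Finset.filter_ne', Finset.card_erase_of_mem (Finset.mem_univ _), Finset.card_univ,
          ← Nat.card_eq_fintype_card]

theorem bound_pair [MulAction.IsPretransitive ↥(Matrix.symplecticGroup (Fin m) F) Ω] (hm : 1 ≤ m)
    (𝒯 : Ω → Finset (Submodule F V))
    (hequiv : ∀ (g : Sp) (y : Ω) (W : Submodule F V), W ∈ 𝒯 y → img g W ∈ 𝒯 (g • y))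
    {r d : ℕ} (hcard : ∀ y, (𝒯 y).card ≤ r) (hdim : ∀ y, ∀ W ∈ 𝒯 y, Module.finrank F W ≤ d)
    (hpair : ∃ y, ∃ W ∈ 𝒯 y, ∃ a ∈ W, ∃ b ∈ W, f a b = 1) :
    (Fintype.card F ^ (2 * m) - 1) * Fintype.card F ^ (2 * m) ≤
      Fintype.card Ω * (r * ((Fintype.card F ^ d - 1) * Fintype.card F ^ d)) := by
  classical
  obtain ⟨y₀, W₀, hW₀, a₀, ha₀, b₀, hb₀, h₀⟩ := hpair
  let Pairs : Finset (V × V) := Finset.univ.filter fun p => f p.1 p.2 = 1
  let PIn : Submodule F V → Finset (V × V) := fun W =>
    Finset.univ.filter fun p => f p.1 p.2 = 1 ∧ p.1 ∈ W ∧ p.2 ∈ W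
  have hsub : Pairs ⊆ Finset.univ.biUnion fun y => (𝒯 y).biUnion PIn := by
    intro p hp
    have hp' : f p.1 p.2 = 1 := (Finset.mem_filter.mp hp).2
    obtain ⟨g, hga, hgb⟩ := exists_mulVec_pair h₀ hp'
    refine Finset.mem_biUnion.mpr ⟨g • y₀, Finset.mem_univ _, Finset.mem_biUnion.mpr
      ⟨_, hequiv g y₀ W₀ hW₀, Finset.mem_filter.mpr ⟨Finset.mem_univ _, hp', ?_, ?_⟩⟩⟩
    · rw [← hga]; exact mem_img_of_mem ha₀
    · rw [← hgb]; exact mem_img_of_mem hb₀
  have hP : Pairs.card = (Fintype.card F ^ (2 * m) - 1) * Fintype.card F ^ (2 * m - 1) := by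
    rw [← card_pairs' hm, Nat.card_eq_fintype_card, Fintype.card_subtype]
  have hW : ∀ y, ∀ W ∈ 𝒯 y,
      (PIn W).card * Fintype.card F ≤ (Fintype.card F ^ d - 1) * Fintype.card F ^ d := by
    intro y W hW
    have e : (PIn W).card = Nat.card {p : W × W // f (p.1 : V) p.2 = 1} := by
      rw [← Fintype.card_coe, ← Nat.card_eq_fintype_card]
      exact Nat.card_congr
        { toFun := fun p => ⟨(⟨p.1.1, (Finset.mem_filter.mp p.2).2.2.1⟩, ⟨p.1.2, (Finset.mem_filter.mp p.2).2.2.2⟩),
            (Finset.mem_filter.mp p.2).2.1⟩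
          invFun := fun p => ⟨(p.1.1.1, p.1.2.1), Finset.mem_filter.mpr ⟨Finset.mem_univ _, p.2, p.1.1.2, p.1.2.2⟩⟩
          left_inv := fun p => rfl
          right_inv := fun p => rfl }
    rw [e]
    refine (card_pairs_in W).trans ?_
    have hc : Nat.card W ≤ Fintype.card F ^ d := by
      rw [card_sub W]
      exact Nat.pow_le_pow_right Fintype.card_pos (hdim y W hW)
    exact Nat.mul_le_mul (Nat.sub_le_sub_right hc 1) hc
  have h1 : Pairs.card * Fintype.card F ≤
      Fintype.card Ω * (r * ((Fintype.card F ^ d - 1) * Fintype.card F ^ d)) := by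
    refine (Nat.mul_le_mul_right _ ((Finset.card_le_card hsub).trans Finset.card_biUnion_le)).trans ?_
    rw [Finset.sum_mul]
    refine (Finset.sum_le_card_nsmul _ _ (r * ((Fintype.card F ^ d - 1) * Fintype.card F ^ d)) fun y _ => ?_).trans
      (by rw [Finset.card_univ, smul_eq_mul])
    refine (Nat.mul_le_mul_right _ Finset.card_biUnion_le).trans ?_
    rw [Finset.sum_mul]
    refine (Finset.sum_le_card_nsmul _ _ _ (hW y)).trans ?_
    rw [smul_eq_mul]
    exact Nat.mul_le_mul_right _ (hcard y)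
  rw [hP] at h1
  calc (Fintype.card F ^ (2 * m) - 1) * Fintype.card F ^ (2 * m)
      = (Fintype.card F ^ (2 * m) - 1) * Fintype.card F ^ (2 * m - 1) * Fintype.card F := by
        rw [mul_assoc, ← pow_succ, show 2 * m - 1 + 1 = 2 * m by omega]
    _ ≤ _ := h1

theorem bound_isotropic [MulAction.IsPretransitive ↥(Matrix.symplecticGroup (Fin m) F) Ω]
    (R : Ω → Submodule F V) (hequiv : ∀ (g : Sp) (y : Ω), img g (R y) = R (g • y))
    (hiso : ∀ y, ∀ a ∈ R y, ∀ b ∈ R y, f a b = 0) (y₀ : Ω) :
    Module.finrank F (R y₀) ≤ m ∧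
      ∏ i ∈ Finset.range (Module.finrank F (R y₀)), (Fintype.card F ^ (2 * m - i) - Fintype.card F ^ i) ≤
        Fintype.card Ω * ∏ i ∈ Finset.range (Module.finrank F (R y₀)),
          (Fintype.card F ^ (Module.finrank F (R y₀)) - Fintype.card F ^ i) := by
  classical
  set r := Module.finrank F (R y₀) with hr
  have hdim : ∀ y, Module.finrank F (R y) = r := by
    intro y
    obtain ⟨g, rfl⟩ := MulAction.exists_smul_eq ↥(Matrix.symplecticGroup (Fin m) F) y₀ y
    rw [← hequiv, finrank_img]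
  let b := Module.finBasisOfFinrankEq F (R y₀) hr.symm
  let w₀ : Frame m r F := ⟨fun i => (b i : V),
    b.linearIndependent.map' (R y₀).subtype (Submodule.ker_subtype _), fun i j => hiso _ _ (b i).2 _ (b j).2⟩
  have hmem : ∀ w : Frame m r F, ∃ y : Ω, ∀ i, w.1 i ∈ R y := by
    intro w
    obtain ⟨g, hg⟩ := exists_move_frame w₀ w
    exact ⟨g • y₀, fun i => by rw [← hequiv, ← hg i]; exact mem_img_of_mem (b i).2⟩
  refine ⟨?_, ?_⟩
  · by_contra hlt
    push Not at hlt
    have hpos : 0 < Nat.card (Frame m r F) := Nat.card_pos_iff.mpr ⟨⟨w₀⟩, inferInstance⟩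
    rw [card_frame] at hpos
    have h := Finset.prod_ne_zero_iff.mp hpos.ne' m (Finset.mem_range.mpr hlt)
    rw [show 2 * m - m = m by omega] at h
    omega
  choose pt hpt using hmem
  let J : Frame m r F → Σ y : Ω, {s : Fin r → R y // LinearIndependent F s} := fun w =>
    ⟨pt w, ⟨fun i => ⟨w.1 i, hpt w i⟩, LinearIndependent.of_comp (R (pt w)).subtype w.2.1⟩⟩
  have hJ : Function.Injective J := by
    intro w w' h
    apply Subtype.ext
    funext i
    exact congrArg (fun z : Σ y : Ω, {s : Fin r → R y // LinearIndependent F s} => ((z.2.1 i) : V)) h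
  have h1 := Nat.card_le_card_of_injective J hJ
  rw [card_frame, Nat.card_sigma] at h1
  refine h1.trans (le_of_eq ?_)
  rw [Finset.sum_congr rfl fun y _ => ((card_linearIndependent (hdim y).ge).trans
    (by rw [hdim y, Fin.prod_univ_eq_prod_range (fun i => Fintype.card F ^ r - Fintype.card F ^ i) r])),
    Finset.sum_const, Finset.card_univ, smul_eq_mul]

end Counting

theorem numeric_pair {q m r d N : ℕ} (hq : 3 ≤ q) (hd : 1 ≤ d) (hdm : d ≤ m) (hrd : r * d ≤ 2 * m)
    (hlt : N * (q - 1) < q ^ (2 * m) - 1)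
    (h : (q ^ (2 * m) - 1) * q ^ (2 * m) ≤ N * (r * ((q ^ d - 1) * q ^ d))) : False := by
  have key : r * ((q ^ d - 1) * q ^ d) ≤ (q - 1) * q ^ (2 * m) := by
    have h1 : (q ^ d - 1) * q ^ d ≤ q ^ (2 * d) := by
      rw [two_mul, pow_add]
      exact Nat.mul_le_mul_right _ (Nat.sub_le _ _)
    have h2 : r ≤ (q - 1) * q ^ (2 * m - 2 * d) := by
      rcases Nat.lt_or_ge r 3 with hr | hr
      · calc r ≤ 2 * 1 := by omega
          _ ≤ (q - 1) * q ^ (2 * m - 2 * d) := Nat.mul_le_mul (by omega) (Nat.one_le_pow _ _ (by omega))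
      · have h4 : r - 2 ≤ 2 * m - 2 * d := by
          have : (r - 2) * d ≤ 2 * m - 2 * d := by rw [Nat.sub_mul]; omega
          have : r - 2 ≤ (r - 2) * d := Nat.le_mul_of_pos_right _ hd
          omega
        calc r ≤ 2 * (r - 2 + 1) := by omega
          _ ≤ (q - 1) * q ^ (2 * m - 2 * d) :=
            Nat.mul_le_mul (by omega) ((Nat.succ_le_of_lt (Nat.lt_pow_self (by omega : 1 < q))).trans
              (Nat.pow_le_pow_right (by omega) h4))
    calc r * ((q ^ d - 1) * q ^ d) ≤ (q - 1) * q ^ (2 * m - 2 * d) * q ^ (2 * d) := Nat.mul_le_mul h2 h1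
      _ = (q - 1) * q ^ (2 * m) := by rw [mul_assoc, ← pow_add, show 2 * m - 2 * d + 2 * d = 2 * m by omega]
  have h5 : (q ^ (2 * m) - 1) * q ^ (2 * m) ≤ N * (q - 1) * q ^ (2 * m) :=
    h.trans (by rw [mul_assoc]; exact Nat.mul_le_mul_left _ key)
  exact absurd (Nat.le_of_mul_le_mul_right h5 (Nat.pow_pos (by omega))) (not_le.mpr hlt)

theorem numeric_isotropic {q m r N : ℕ} (hq : 3 ≤ q) (hr : 1 ≤ r) (hrm : r ≤ m)
    (hlt : N * (q - 1) < q ^ (2 * m) - 1)
    (h : ∏ i ∈ Finset.range r, (q ^ (2 * m - i) - q ^ i) ≤ N * ∏ i ∈ Finset.range r, (q ^ r - q ^ i)) :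
    False := by
  set g := fun i => q ^ (2 * m - i) - q ^ i with hg
  set l := fun i => q ^ r - q ^ i with hl
  have hgpos : ∀ i, i < r → 0 < g i := fun i hi =>
    Nat.sub_pos_of_lt (Nat.pow_lt_pow_right (by omega) (by omega))
  have hle : ∀ i, i < r → l i ≤ g i := fun i hi =>
    Nat.sub_le_sub_right (Nat.pow_le_pow_right (by omega) (by omega)) _
  have hlpos : 0 < ∏ i ∈ Finset.range r, l i := Finset.prod_pos fun i hi =>
    Nat.sub_pos_of_lt (Nat.pow_lt_pow_right (by omega) (Finset.mem_range.mp hi))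
  have key : (q ^ (2 * m) - 1) * ∏ i ∈ Finset.range r, l i ≤ (q - 1) * ∏ i ∈ Finset.range r, g i := by
    rcases Nat.lt_or_ge r 3 with h3 | h3
    · interval_cases r
      · simp [hg, hl, mul_comm]
      · simp only [Finset.prod_range_succ, Finset.prod_range_zero, one_mul, hg, hl, Nat.sub_zero, pow_zero, pow_one]
        have e1 : (q ^ 2 - 1) * (q ^ 2 - q) ≤ (q - 1) * (q ^ (2 * m - 1) - q) := by
          have e2 : q ^ 2 - q = (q - 1) * q := by rw [Nat.sub_mul, one_mul, sq]
          rw [e2, mul_left_comm]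
          refine Nat.mul_le_mul_left _ ?_
          rw [Nat.sub_mul, one_mul, ← pow_succ]
          exact Nat.sub_le_sub_right (Nat.pow_le_pow_right (by omega) (by omega)) _
        calc (q ^ (2 * m) - 1) * ((q ^ 2 - 1) * (q ^ 2 - q))
            ≤ (q ^ (2 * m) - 1) * ((q - 1) * (q ^ (2 * m - 1) - q)) := Nat.mul_le_mul_left _ e1
          _ = _ := by ring
    · obtain ⟨k, rfl⟩ : ∃ k, r = k + 3 := ⟨r - 3, by omega⟩
      simp only [Finset.prod_range_succ']
      have hA : ∏ i ∈ Finset.range k, l (i + 1 + 1 + 1) ≤ ∏ i ∈ Finset.range k, g (i + 1 + 1 + 1) :=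
        Finset.prod_le_prod' fun i hi => hle _ (by have := Finset.mem_range.mp hi; omega)
      have h0 : l 0 = q ^ (k + 3) - 1 := by simp [hl]
      have h0' : g 0 = q ^ (2 * m) - 1 := by simp [hg]
      have h2 : l 2 * q ≤ g 2 := by
        simp only [hl, hg]
        rw [Nat.sub_mul, ← pow_succ, ← pow_succ]
        have := Nat.pow_le_pow_right (n := q) (by omega : q > 0) (show k + 3 + 1 ≤ 2 * m - 2 by omega)
        have := Nat.pow_le_pow_right (n := q) (by omega : q > 0) (show 2 ≤ 2 + 1 by omega)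
        omega
      have h1 : l 0 * l 1 ≤ (q - 1) * q * g 1 := by
        have ha : l 0 * l 1 ≤ q ^ (2 * m) := by
          refine (Nat.mul_le_mul (Nat.sub_le _ _) (Nat.sub_le _ _)).trans ?_
          rw [← pow_add]
          exact Nat.pow_le_pow_right (by omega) (by omega)
        have hb : q * g 1 = q ^ (2 * m) - q ^ 2 := by
          simp only [hg]
          rw [Nat.mul_sub, ← pow_succ', ← pow_succ', show 2 * m - 1 + 1 = 2 * m by omega]
        have hc : 2 * q ^ 2 ≤ q ^ (2 * m) := by
          calc 2 * q ^ 2 ≤ q * q ^ 2 := Nat.mul_le_mul_right _ (by omega)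
            _ ≤ q ^ (2 * m) := by rw [← pow_succ']; exact Nat.pow_le_pow_right (by omega) (by omega)
        have hd : 2 * (q ^ (2 * m) - q ^ 2) ≤ (q - 1) * (q * g 1) := by
          rw [hb]; exact Nat.mul_le_mul_right _ (by omega)
        rw [mul_assoc]
        omega
      have hq' : q * l 2 ≤ g 2 := by rw [mul_comm]; exact h2
      show (q ^ (2 * m) - 1) * ((∏ i ∈ Finset.range k, l (i + 1 + 1 + 1)) * l 2 * l 1 * l 0) ≤
        (q - 1) * ((∏ i ∈ Finset.range k, g (i + 1 + 1 + 1)) * g 2 * g 1 * g 0)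
      rw [h0']
      calc (q ^ (2 * m) - 1) * ((∏ i ∈ Finset.range k, l (i + 1 + 1 + 1)) * l 2 * l 1 * l 0)
          = (q ^ (2 * m) - 1) * ((∏ i ∈ Finset.range k, l (i + 1 + 1 + 1)) * (l 2 * (l 0 * l 1))) := by ring
        _ ≤ (q ^ (2 * m) - 1) * ((∏ i ∈ Finset.range k, g (i + 1 + 1 + 1)) * (l 2 * ((q - 1) * q * g 1))) :=
            Nat.mul_le_mul_left _ (Nat.mul_le_mul hA (Nat.mul_le_mul_left _ h1))
        _ = (q ^ (2 * m) - 1) * ((∏ i ∈ Finset.range k, g (i + 1 + 1 + 1)) * (q * l 2) * ((q - 1) * g 1)) := by ring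
        _ ≤ (q ^ (2 * m) - 1) * ((∏ i ∈ Finset.range k, g (i + 1 + 1 + 1)) * g 2 * ((q - 1) * g 1)) :=
            Nat.mul_le_mul_left _ (Nat.mul_le_mul_right _ (Nat.mul_le_mul_left _ hq'))
        _ = _ := by ring
  have h6 : (q ^ (2 * m) - 1) * ∏ i ∈ Finset.range r, l i ≤ N * (q - 1) * ∏ i ∈ Finset.range r, l i :=
    key.trans (by rw [mul_comm N, mul_assoc]; exact Nat.mul_le_mul_left _ h)
  exact absurd (Nat.le_of_mul_le_mul_right h6 hlpos) (not_le.mpr hlt)

theorem exists_avoid {E : Type*} [AddCommGroup E] [Module F E] (hq : 3 ≤ Fintype.card F)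
    (A B C : Submodule F E) (hA : A ≠ ⊤) (hB : B ≠ ⊤) (hC : C ≠ ⊤) : ∃ x, x ∉ A ∧ x ∉ B ∧ x ∉ C := by
  classical
  have two : ∀ A B : Submodule F E, A ≠ ⊤ → B ≠ ⊤ → ∃ x, x ∉ A ∧ x ∉ B := by
    intro A B hA hB
    by_contra hc
    push Not at hc
    obtain ⟨a, ha⟩ : ∃ a, a ∉ A := by
      by_contra h; push Not at h; exact hA (eq_top_iff.mpr fun x _ => h x)
    obtain ⟨b, hb⟩ : ∃ b, b ∉ B := by
      by_contra h; push Not at h; exact hB (eq_top_iff.mpr fun x _ => h x)
    have haB := hc a ha
    have hbA : b ∈ A := by_contra fun h => hb (hc b h)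
    have h1 : a + b ∉ A := fun h => ha (by simpa using sub_mem h hbA)
    exact hb (by simpa using sub_mem (hc _ h1) haB)
  obtain ⟨x, hxA, hxB⟩ := two A B hA hB
  by_cases hxC : x ∈ C
  swap
  · exact ⟨x, hxA, hxB, hxC⟩
  obtain ⟨y, hy⟩ : ∃ y, y ∉ C := by
    by_contra h; push Not at h; exact hC (eq_top_iff.mpr fun x _ => h x)
  -- the points `y + t x`: at most one in `A`, at most one in `B`, none in `C`
  have hone : ∀ (D : Submodule F E), x ∉ D → ∀ s t : F, y + s • x ∈ D → y + t • x ∈ D → s = t := by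
    intro D hxD s t hs ht
    by_contra hne
    apply hxD
    have h := sub_mem hs ht
    rw [add_sub_add_left_eq_sub, ← sub_smul] at h
    exact (D.smul_mem_iff (sub_ne_zero.mpr hne)).mp h
  by_contra hc
  push Not at hc
  let SA : Finset F := Finset.univ.filter fun t => y + t • x ∈ A
  let SB : Finset F := Finset.univ.filter fun t => y + t • x ∈ B
  have hcov : (Finset.univ : Finset F) ⊆ SA ∪ SB := by
    intro t _
    by_contra hn
    simp only [SA, SB, Finset.mem_union, Finset.mem_filter, Finset.mem_univ, true_and, not_or] at hn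
    exact hy (by simpa using sub_mem (hc _ hn.1 hn.2) (C.smul_mem t hxC))
  have h1 : SA.card ≤ 1 := Finset.card_le_one.mpr fun s hs t ht =>
    hone A hxA s t (Finset.mem_filter.mp hs).2 (Finset.mem_filter.mp ht).2
  have h2 : SB.card ≤ 1 := Finset.card_le_one.mpr fun s hs t ht =>
    hone B hxB s t (Finset.mem_filter.mp hs).2 (Finset.mem_filter.mp ht).2
  have := (Finset.card_le_card hcov).trans (Finset.card_union_le _ _)
  rw [Finset.card_univ] at this
  omega

/-- All vectors of `W` outside its radical are fixed. -/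
def Good (y : Ω) (W : Submodule F (Fin m ⊕ Fin m → F)) : Prop := ∀ z ∈ W, z ∉ orth W → Fixes y z

theorem good_grow (hq : 3 ≤ Fintype.card F) {y : Ω} {W : Submodule F V} (hW : Good y W) {s : V}
    (hs : Fixes y s) (hsW : s ∉ orth W) (hnd : ∃ x ∈ W, x ∉ orth W) : Good y (W ⊔ Submodule.span F {s}) := by
  have hsW' : ∃ u ∈ W, f s u ≠ 0 := by
    by_contra h; push Not at h; exact hsW (mem_orth.mpr h)
  have hsum : ∀ w ∈ W, ∀ t : F, (∃ u ∈ W, f (w + t • s) u ≠ 0) → Fixes y (w + t • s) := by
    intro w hw t hzu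
    obtain ⟨u₁, hu₁, hzu₁⟩ := hzu
    obtain ⟨u₂, hu₂, hsu₂⟩ := hsW'
    obtain ⟨u₃, hu₃, hu₃'⟩ := hnd
    let Kz : Submodule F W := (LinearMap.ker (dualOf (w + t • s))).comap W.subtype
    let Ks : Submodule F W := (LinearMap.ker (dualOf s)).comap W.subtype
    let Kr : Submodule F W := (orth W).comap W.subtype
    have hKz : Kz ≠ ⊤ := fun h => hzu₁ (by
      have : (⟨u₁, hu₁⟩ : W) ∈ Kz := h ▸ Submodule.mem_top
      have h0 : f u₁ (w + t • s) = 0 := this
      rw [form_skew, h0, neg_zero])
    have hKs : Ks ≠ ⊤ := fun h => hsu₂ (by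
      have : (⟨u₂, hu₂⟩ : W) ∈ Ks := h ▸ Submodule.mem_top
      have h0 : f u₂ s = 0 := this
      rw [form_skew, h0, neg_zero])
    have hKr : Kr ≠ ⊤ := fun h => hu₃' (by
      have : (⟨u₃, hu₃⟩ : W) ∈ Kr := h ▸ Submodule.mem_top
      exact this)
    obtain ⟨⟨x, hxW⟩, hxz, hxs, hxr⟩ := exists_avoid hq Kz Ks Kr hKz hKs hKr
    have hxz' : f x (w + t • s) ≠ 0 := hxz
    have hxs' : f x s ≠ 0 := hxs
    have hxr' : x ∉ orth W := hxr
    obtain ⟨β, hβ1, hβ2⟩ : ∃ β : F, w + β • x ∉ orth W ∧ f (w + β • x) s ≠ 0 := by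
      classical
      by_contra hc
      push Not at hc
      have hone : ∀ a b : F, w + a • x ∈ orth W → w + b • x ∈ orth W → a = b := by
        intro a b ha hb
        by_contra hne
        apply hxr'
        have h := sub_mem ha hb
        rw [add_sub_add_left_eq_sub, ← sub_smul] at h
        exact ((orth W).smul_mem_iff (sub_ne_zero.mpr hne)).mp h
      let S1 : Finset F := Finset.univ.filter fun b => w + b • x ∈ orth W
      have hcov : (Finset.univ : Finset F) ⊆ S1 ∪ {-(f w s / f x s)} := by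
        intro b _
        by_cases hb : w + b • x ∈ orth W
        · exact Finset.mem_union_left _ (Finset.mem_filter.mpr ⟨Finset.mem_univ _, hb⟩)
        · refine Finset.mem_union_right _ (Finset.mem_singleton.mpr ?_)
          have h0 := hc b hb
          rw [form_add_left, form_smul_left] at h0
          field_simp
          linear_combination h0
      have h1 : S1.card ≤ 1 := Finset.card_le_one.mpr fun a ha b hb =>
        hone a b (Finset.mem_filter.mp ha).2 (Finset.mem_filter.mp hb).2
      have := (Finset.card_le_card hcov).trans (Finset.card_union_le _ _)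
      rw [Finset.card_univ, Finset.card_singleton] at this
      omega
    have h' : Fixes y (w + β • x + t • s) :=
      fixes_line hs (hW _ (add_mem hw (W.smul_mem β hxW)) hβ1) hβ2 t
    have hne : f (w + β • x + t • s) x ≠ 0 := by
      rw [show w + β • x + t • s = w + t • s + β • x by abel, form_add_left, form_smul_left, form_self,
        mul_zero, add_zero, form_skew]
      exact neg_ne_zero.mpr hxz'
    have h'' := fixes_line (hW x hxW hxr') h' hne (-β)
    rwa [show w + β • x + t • s + (-β) • x = w + t • s by module] at h''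
  intro z hz hzr
  obtain ⟨w, hw, p, hp, rfl⟩ := Submodule.mem_sup.mp hz
  obtain ⟨t, rfl⟩ := Submodule.mem_span_singleton.mp hp
  by_cases hzW : ∃ u ∈ W, f (w + t • s) u ≠ 0
  · exact hsum w hw t hzW
  push Not at hzW
  have hzs : f (w + t • s) s ≠ 0 := by
    intro h0
    refine hzr (mem_orth.mpr fun u hu => ?_)
    obtain ⟨a, ha, b, hb, rfl⟩ := Submodule.mem_sup.mp hu
    obtain ⟨c, rfl⟩ := Submodule.mem_span_singleton.mp hb
    rw [form_add_right, hzW a ha, form_smul_right, h0, mul_zero, add_zero]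
  obtain ⟨u, hu, hsu⟩ := hsW'
  have h' := hsum w hw (t + 1) ⟨u, hu, by
    rw [show w + (t + 1) • s = w + t • s + s by module, form_add_left, hzW u hu, zero_add]
    exact hsu⟩
  have hne : f (w + (t + 1) • s) s ≠ 0 := by
    rwa [show w + (t + 1) • s = w + t • s + s by module, form_add_left, form_self, add_zero]
  have h'' := fixes_line hs h' hne (-1)
  rwa [show w + (t + 1) • s + (-1 : F) • s = w + t • s by module] at h''

section Main

variable [Fintype Ω] [MulAction.IsPretransitive ↥(Matrix.symplecticGroup (Fin m) F) Ω]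

set_option maxHeartbeats 2000000 in
theorem not_fixes [Nontrivial Ω] (hq : 3 ≤ Fintype.card F) (hm : 2 ≤ m)
    (hlt : Fintype.card Ω * (Fintype.card F - 1) < Fintype.card F ^ (2 * m) - 1)
    {v : V} (hv : v ≠ 0) (y₀ : Ω) : ¬ Fixes y₀ v := by
  classical
  intro hv₀
  let T : Ω → Submodule F V := fun y => Submodule.span F {z | Fixes y z}
  have hTeq : ∀ (g : Sp) (y : Ω), img g (T y) = T (g • y) := by
    intro g y
    show Submodule.map _ _ = _
    rw [Submodule.map_span]
    congr 1
    ext z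
    simp only [Set.mem_image, Set.mem_ofPred_eq, Matrix.mulVecLin_apply]
    constructor
    · rintro ⟨a, ha, rfl⟩
      exact fixes_smul ha g
    · intro hz
      exact ⟨_, (fixes_smul_iff g).mp hz, mulVec_inv g z⟩
  have hT0 : T y₀ ≠ ⊥ := fun h => hv (by
    have : v ∈ T y₀ := Submodule.subset_span hv₀
    rwa [h, Submodule.mem_bot] at this)
  by_cases hTtop : T y₀ = ⊤
  swap
  · let R : Ω → Submodule F V := fun y => T y ⊓ orth (T y)
    have hReq : ∀ (g : Sp) (y : Ω), img g (R y) = R (g • y) := fun g y => by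
      show img g (T y ⊓ orth (T y)) = _
      rw [img_inf, ← img_orth, hTeq]
    by_cases hR : R y₀ = ⊥
    swap
    · obtain ⟨hrm, h⟩ := bound_isotropic R hReq (fun y a ha b hb => mem_orth.mp ha.2 b hb.1) y₀
      exact numeric_isotropic hq (Nat.one_le_iff_ne_zero.mpr fun h0 => hR (Submodule.finrank_eq_zero.mp h0))
        hrm hlt h
    -- a non-degenerate invariant subspace: use the smaller of it and its orthogonal
    have hsum := finrank_orth (T y₀)
    have hcompl : T y₀ ⊔ orth (T y₀) = ⊤ := by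
      apply Submodule.eq_top_of_finrank_eq
      have h := Submodule.finrank_sup_add_finrank_inf_eq (T y₀) (orth (T y₀))
      rw [show T y₀ ⊓ orth (T y₀) = ⊥ from hR, finrank_bot] at h
      rw [Module.finrank_fintype_fun_eq_card, Fintype.card_sum, Fintype.card_fin]
      omega
    have hnd : ∀ U : Submodule F V, (U = T y₀ ∨ U = orth (T y₀)) → U ≠ ⊥ →
        ∃ a ∈ U, ∃ b ∈ U, f a b = 1 := by
      intro U hU hU0
      obtain ⟨a, ha, ha0⟩ := Submodule.exists_mem_ne_zero_of_ne_bot hU0
      obtain ⟨z, hz⟩ := exists_form_ne_zero ha0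
      obtain ⟨t, ht, o, ho, rfl⟩ := Submodule.mem_sup.mp (hcompl ▸ Submodule.mem_top (x := z))
      rw [form_add_right] at hz
      rcases hU with rfl | rfl
      · rw [form_skew o a, mem_orth.mp ho a ha, neg_zero, add_zero] at hz
        exact ⟨a, ha, _, (T y₀).smul_mem (f a t)⁻¹ ht, by rw [form_smul_right, inv_mul_cancel₀ hz]⟩
      · rw [mem_orth.mp ha t ht, zero_add] at hz
        exact ⟨a, ha, _, (orth (T y₀)).smul_mem (f a o)⁻¹ ho, by rw [form_smul_right, inv_mul_cancel₀ hz]⟩
    have hdim : ∀ y, Module.finrank F (T y) = Module.finrank F (T y₀) := by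
      intro y
      obtain ⟨g, rfl⟩ := MulAction.exists_smul_eq ↥(Matrix.symplecticGroup (Fin m) F) y₀ y
      rw [← hTeq, finrank_img]
    have hd1 : 1 ≤ Module.finrank F (T y₀) := Nat.one_le_iff_ne_zero.mpr fun h0 => hT0 (Submodule.finrank_eq_zero.mp h0)
    have hd2 : Module.finrank F (T y₀) < 2 * m := by
      refine lt_of_lt_of_eq (Submodule.finrank_lt hTtop) ?_
      rw [Module.finrank_fintype_fun_eq_card, Fintype.card_sum, Fintype.card_fin, two_mul]
    rcases le_or_gt (Module.finrank F (T y₀)) m with hd | hd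
    · refine numeric_pair hq hd1 hd (by omega : 1 * _ ≤ 2 * m) hlt
        (bound_pair (by omega) (fun y => {T y}) (fun g y W hW => by
          rw [Finset.mem_singleton] at hW ⊢; rw [hW, hTeq]) (fun y => (Finset.card_singleton _).le)
          (fun y W hW => by rw [Finset.mem_singleton] at hW; rw [hW, hdim])
          ⟨y₀, _, Finset.mem_singleton_self _, hnd _ (Or.inl rfl) hT0⟩)
    · refine numeric_pair hq (d := Module.finrank F (orth (T y₀))) (by omega) (by omega)
        (by omega : 1 * _ ≤ 2 * m) hlt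
        (bound_pair (by omega) (fun y => {orth (T y)}) (fun g y W hW => by
          rw [Finset.mem_singleton] at hW ⊢; rw [hW, ← hTeq, img_orth]) (fun y => (Finset.card_singleton _).le)
          (fun y W hW => by
            rw [Finset.mem_singleton] at hW
            subst hW
            have := finrank_orth (T y)
            rw [hdim] at this
            omega)
          ⟨y₀, _, Finset.mem_singleton_self _, hnd _ (Or.inr rfl) fun h0 => ?_⟩)
      rw [h0, finrank_bot] at hsum
      omega
  -- now the fixed vectors span everything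
  have hperp : ∀ r : V, (∀ z, Fixes y₀ z → f r z = 0) → r = 0 := by
    intro r hr
    refine ext_form fun x => ?_
    rw [form_zero_left]
    have hx : x ∈ T y₀ := hTtop ▸ Submodule.mem_top
    induction hx using Submodule.span_induction with
    | mem z hz => exact hr z hz
    | zero => exact form_zero_right _
    | add a b _ _ ha hb => rw [form_add_right, ha, hb, add_zero]
    | smul c a _ ha => rw [form_smul_right, ha, mul_zero]
  obtain ⟨w, hw, hvw⟩ : ∃ w, Fixes y₀ w ∧ f v w ≠ 0 := by
    by_contra h; push Not at h; exact hv (hperp v h)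
  let plane : Submodule F V := Submodule.span F {v, w}
  have hplane : Good y₀ plane ∧ ∃ a ∈ plane, a ∉ orth plane := by
    refine ⟨fun z hz _ => ?_, v, Submodule.subset_span (by simp), fun h => hvw (mem_orth.mp h w (Submodule.subset_span (by simp)))⟩
    obtain ⟨a, b, rfl⟩ := Submodule.mem_span_pair.mp hz
    exact fixes_plane hv₀ hw (by rw [form_skew, neg_ne_zero]; exact hvw) a b
  obtain ⟨W, hW⟩ := Finite.exists_le_maximal (p := fun W => Good y₀ W ∧ ∃ a ∈ W, a ∉ orth W) hplane
  obtain ⟨hgood, hnd⟩ := hW.2.prop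
  have hsplit : ∀ s, Fixes y₀ s → s ∈ W ∨ s ∈ orth W := by
    intro s hs
    by_cases hso : s ∈ orth W
    · exact Or.inr hso
    left
    obtain ⟨a, ha, hao⟩ := hnd
    have hle := hW.2.le_of_ge (y := W ⊔ Submodule.span F {s}) ⟨good_grow hq hgood hs hso ⟨a, ha, hao⟩, a,
      Submodule.mem_sup_left ha, fun h => hao (mem_orth.mpr fun u hu => mem_orth.mp h u (Submodule.mem_sup_left hu))⟩
      le_sup_left
    exact hle (Submodule.mem_sup_right (Submodule.mem_span_singleton_self s))
  have hrad : ∀ z ∈ W, z ∈ orth W → z = 0 := fun z hz hzo => hperp z fun s hs => by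
    rcases hsplit s hs with h | h
    · exact mem_orth.mp hzo s h
    · rw [form_skew, mem_orth.mp h z hz, neg_zero]
  have hall : ∀ z ∈ W, Fixes y₀ z := fun z hz => by
    by_cases hzo : z ∈ orth W
    · rw [hrad z hz hzo]; exact fixes_zero _
    · exact hgood z hz hzo
  by_cases hWtop : W = ⊤
  · have htop : MulAction.stabilizer Sp y₀ = ⊤ :=
      eq_top_of_tv _ fun z c => MulAction.mem_stabilizer_iff.mpr (hall z (hWtop ▸ Submodule.mem_top) c)
    obtain ⟨y₁, hy₁⟩ := exists_ne y₀
    obtain ⟨g, rfl⟩ := MulAction.exists_smul_eq ↥(Matrix.symplecticGroup (Fin m) F) y₀ y₁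
    exact hy₁ (MulAction.mem_stabilizer_iff.mp (htop ▸ Subgroup.mem_top g))
  -- the orthogonal decomposition
  let IsComp : Ω → Submodule F V → Prop := fun y U => (∀ z ∈ U, Fixes y z) ∧ (∀ z ∈ U, z ∈ orth U → z = 0) ∧
    U ≠ ⊥ ∧ U ≠ ⊤ ∧ ∀ s, Fixes y s → s ∈ U ∨ s ∈ orth U
  have hcompEq : ∀ (g : Sp) y U, IsComp y U → IsComp (g • y) (img g U) := by
    intro g y U ⟨h1, h2, h3, h4, h5⟩
    refine ⟨fun z hz => (fixes_smul_iff g).mpr (h1 _ (mem_img.mp hz)), fun z hz hzo => ?_,
      fun h => h3 ((img_eq_bot_iff g U).mp h), fun h => h4 ((img_eq_top_iff g U).mp h), fun s hs => ?_⟩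
    · rw [img_orth, mem_img] at hzo
      have := h2 _ (mem_img.mp hz) hzo
      rw [← mulVec_inv g z, this, Matrix.mulVec_zero]
    · rw [img_orth, mem_img, mem_img]
      exact h5 _ ((fixes_smul_iff g).mp hs)
  have hW0 : W ≠ ⊥ := fun h => by
    obtain ⟨a, ha, hao⟩ := hnd
    rw [h, Submodule.mem_bot] at ha
    exact hao (ha ▸ zero_mem _)
  have hcompW : IsComp y₀ W := ⟨hall, hrad, hW0, hWtop, hsplit⟩
  -- two components are equal or orthogonal
  have hcomp2 : ∀ y U U', IsComp y U → IsComp y U' → U = U' ∨ U' ≤ orth U := by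
    intro y U U' hU hU'
    have hsub : ∀ A B : Submodule F V, IsComp y A → IsComp y B → B ≤ A ∨ B ≤ orth A := by
      intro A B hA hB
      by_contra hc
      push Not at hc
      obtain ⟨⟨a, ha, haA⟩, b, hb, hbA⟩ := (SetLike.not_le_iff_exists.mp hc.1), (SetLike.not_le_iff_exists.mp hc.2)
      have haO := (hA.2.2.2.2 a (hB.1 a ha)).resolve_left haA
      have hbI := (hA.2.2.2.2 b (hB.1 b hb)).resolve_right hbA
      rcases hA.2.2.2.2 _ (hB.1 _ (add_mem ha hb)) with h | h
      · exact haA (by simpa using sub_mem h hbI)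
      · exact hbA (by simpa using sub_mem h haO)
    rcases hsub U U' hU hU' with h | h
    · rcases hsub U' U hU' hU with h' | h'
      · exact Or.inl (le_antisymm h' h)
      · exact absurd (Submodule.eq_bot_iff _ |>.mpr fun z hz => hU'.2.1 z hz (h' (h hz))) hU'.2.2.1
    · exact Or.inr h
  let Dim : Set ℕ := {d | ∃ y U, IsComp y U ∧ Module.finrank F U = d}
  have hDim : Dim.Nonempty := ⟨_, y₀, W, hcompW, rfl⟩
  obtain ⟨y₁, U₁, hU₁, hdU₁⟩ := Nat.sInf_mem hDim
  set d := sInf Dim with hd
  have hd1 : 1 ≤ d := hdU₁ ▸ Nat.one_le_iff_ne_zero.mpr fun h0 => hU₁.2.2.1 (Submodule.finrank_eq_zero.mp h0)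
  let 𝒯 : Ω → Finset (Submodule F V) := fun y =>
    (Set.toFinite {U | IsComp y U ∧ Module.finrank F U = d}).toFinset
  have hmem : ∀ y U, U ∈ 𝒯 y ↔ IsComp y U ∧ Module.finrank F U = d := fun y U => by simp [𝒯]
  have hcount : ∀ y, (𝒯 y).card * d ≤ 2 * m := by
    intro y
    have key : ∀ S : Finset (Submodule F V), S ⊆ 𝒯 y → Module.finrank F ↥(S.sup id) = S.card * d := by
      intro S
      induction S using Finset.induction with
      | empty => intro _; simp
      | insert U S hUS ih =>
        intro hsub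
        rw [Finset.insert_subset_iff] at hsub
        have hU := (hmem y U).mp hsub.1
        have hperpS : S.sup id ≤ orth U := Finset.sup_le fun U' hU' =>
          (hcomp2 y U U' hU.1 ((hmem y U').mp (hsub.2 hU')).1).resolve_left fun h => hUS (h ▸ hU')
        have hdisj : U ⊓ S.sup id = ⊥ :=
          (Submodule.eq_bot_iff _).mpr fun z hz => hU.1.2.1 z hz.1 (hperpS hz.2)
        have h := Submodule.finrank_sup_add_finrank_inf_eq U (S.sup id)
        rw [hdisj, finrank_bot, add_zero, ih hsub.2, hU.2] at h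
        rw [Finset.sup_insert, id_eq, h, Finset.card_insert_of_notMem hUS]
        ring
    rw [← key _ subset_rfl]
    refine (Submodule.finrank_le _).trans_eq ?_
    rw [Module.finrank_fintype_fun_eq_card, Fintype.card_sum, Fintype.card_fin, two_mul]
  have hnonzero : ∀ U y, IsComp y U → ∃ a ∈ U, ∃ b ∈ U, f a b = 1 := by
    intro U y hU
    obtain ⟨a, ha, ha0⟩ := Submodule.exists_mem_ne_zero_of_ne_bot hU.2.2.1
    obtain ⟨b, hb, hab⟩ : ∃ b ∈ U, f a b ≠ 0 := by
      by_contra h; push Not at h; exact ha0 (hU.2.1 a ha (mem_orth.mpr h))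
    exact ⟨a, ha, _, U.smul_mem (f a b)⁻¹ hb, by rw [form_smul_right, inv_mul_cancel₀ hab]⟩
  have hr1 : (𝒯 y₁).card ≥ 1 := Finset.card_pos.mpr ⟨U₁, (hmem _ _).mpr ⟨hU₁, hdU₁⟩⟩
  rcases le_or_gt d m with hdm | hdm
  · refine numeric_pair hq hd1 hdm (Nat.div_mul_le_self (2 * m) d) hlt
      (bound_pair (by omega) 𝒯 (fun g y U hU => (hmem _ _).mpr ⟨hcompEq g y U ((hmem _ _).mp hU).1,
        by rw [finrank_img, ((hmem _ _).mp hU).2]⟩) (fun y => (Nat.le_div_iff_mul_le (by omega)).mpr (hcount y))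
        (fun y U hU => ((hmem _ _).mp hU).2.le) ⟨y₁, U₁, (hmem _ _).mpr ⟨hU₁, hdU₁⟩, hnonzero _ _ hU₁⟩)
  · -- one component per point; pass to its orthogonal
    have hone : ∀ y, (𝒯 y).card ≤ 1 := by
      intro y
      by_contra h
      have h2 : 2 * d ≤ (𝒯 y).card * d := Nat.mul_le_mul_right _ (by omega)
      have := hcount y
      omega
    have hs := finrank_orth U₁
    refine numeric_pair hq (d := 2 * m - d) (r := 1) ?_ (by omega) (by omega) hlt
      (bound_pair (by omega) (fun y => (𝒯 y).image orth) (fun g y U hU => by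
        obtain ⟨A, hA, rfl⟩ := Finset.mem_image.mp hU
        exact Finset.mem_image.mpr ⟨img g A, (hmem _ _).mpr ⟨hcompEq g y A ((hmem _ _).mp hA).1,
          by rw [finrank_img, ((hmem _ _).mp hA).2]⟩, img_orth g A⟩)
        (fun y => Finset.card_image_le.trans (hone y))
        (fun y U hU => by
          obtain ⟨A, hA, rfl⟩ := Finset.mem_image.mp hU
          have := finrank_orth A
          rw [((hmem _ _).mp hA).2] at this
          omega) ⟨y₁, orth U₁, Finset.mem_image.mpr ⟨U₁, (hmem _ _).mpr ⟨hU₁, hdU₁⟩, rfl⟩, ?_⟩)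
    · have := Submodule.finrank_lt hU₁.2.2.2.1
      rw [Module.finrank_fintype_fun_eq_card, Fintype.card_sum, Fintype.card_fin, hdU₁] at this
      omega
    · obtain ⟨a, ha, ha0⟩ := Submodule.exists_mem_ne_zero_of_ne_bot (p := orth U₁) fun h => by
        rw [h, finrank_bot] at hs
        have := Submodule.finrank_lt hU₁.2.2.2.1
        rw [Module.finrank_fintype_fun_eq_card, Fintype.card_sum, Fintype.card_fin, hdU₁] at this
        omega
      have hcompl : U₁ ⊔ orth U₁ = ⊤ := by
        apply Submodule.eq_top_of_finrank_eq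
        have h := Submodule.finrank_sup_add_finrank_inf_eq U₁ (orth U₁)
        rw [show U₁ ⊓ orth U₁ = ⊥ from (Submodule.eq_bot_iff _).mpr fun z hz => hU₁.2.1 z hz.1 hz.2,
          finrank_bot] at h
        rw [Module.finrank_fintype_fun_eq_card, Fintype.card_sum, Fintype.card_fin]
        omega
      obtain ⟨z, hz⟩ := exists_form_ne_zero ha0
      obtain ⟨t, ht, o, ho, rfl⟩ := Submodule.mem_sup.mp (hcompl ▸ Submodule.mem_top (x := z))
      rw [form_add_right, mem_orth.mp ha t ht, zero_add] at hz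
      exact ⟨a, ha, _, (orth U₁).smul_mem (f a o)⁻¹ ho, by rw [form_smul_right, inv_mul_cancel₀ hz]⟩

end Main

end CfsgLib.MinIndexSp
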