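import Cfsg.Agent.MinIndexSp.Rigid
import Cfsg.Agent.SpGeom.Simple

/-!
The annihilator of a rigid point is not the whole perpendicular of `v`.
-/

set_option autoImplicit false
set_option linter.style.haveILetI false
set_option linter.unusedSectionVars false

namespace CfsgLib.MinIndexSp

open Matrix CfsgLib.SpGeom
open CfsgLib.MinIndexSpTwo (orth mem_orth card_orth card_sub exists_sep mem_of_orth)

variable {F : Type*} [Field F] [Fintype F] {m : ℕ}

local notation "V" => (Fin m ⊕ Fin m → F)
local notation "Sp" => Matrix.symplecticGroup (Fin m) F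
local notation "f" => Cfsg.sympForm m F
local notation "mat" A:max => ((A : Sp) : Matrix (Fin m ⊕ Fin m) (Fin m ⊕ Fin m) F)

omit [Fintype F] in
/-- A diagonal element for the decomposition by a hyperbolic pair. -/
theorem exists_dilation {v v' : V} (hvv : f v' v = 1) {ν α β : F} (hν : ν ^ 2 = 1) (hαβ : α * β = 1) :
    ∃ g : Sp, ∀ x, mat g *ᵥ x = ν • x + ((α - ν) * f v' x) • v + ((β - ν) * f x v) • v' := by
  let Φ : V →ₗ[F] V :=
    { toFun := fun x => ν • x + ((α - ν) * f v' x) • v + ((β - ν) * f x v) • v'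
      map_add' := fun x x' => by rw [form_add_left, form_add_right]; module
      map_smul' := fun t x => by rw [form_smul_left, form_smul_right, RingHom.id_apply]; module }
  have hval : ∀ x, LinearMap.toMatrix' Φ *ᵥ x =
      ν • x + ((α - ν) * f v' x) • v + ((β - ν) * f x v) • v' := fun x => by
    rw [LinearMap.toMatrix'_mulVec]; rfl
  refine ⟨⟨LinearMap.toMatrix' Φ, mem_of_form fun x z => ?_⟩, hval⟩
  rw [hval, hval]
  simp only [form_add_left, form_add_right, form_smul_left, form_smul_right, form_self,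
    form_skew v' v, hvv, form_skew z v, form_skew v' x]
  linear_combination (f v' z * f x v - f v' x * f z v) * hαβ +
    (f x z - f v' z * f x v + f v' x * f z v) * hν

omit [Fintype F] in
theorem nondeg_perp_pair {v v' : V} (hvv : f v' v = 1) : Nondeg (orth (Submodule.span F {v, v'})) := by
  intro u hu hu0
  rw [mem_orth] at hu
  have hu1 := hu v (Submodule.subset_span (by simp))
  have hu2 := hu v' (Submodule.subset_span (by simp))
  obtain ⟨d, hd⟩ := exists_form_ne_zero hu0
  refine ⟨d + f d v' • v + (-f d v) • v', mem_orth.mpr fun x hx => ?_, ?_⟩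
  · obtain ⟨s, t, rfl⟩ := Submodule.mem_span_pair.mp hx
    simp only [form_add_left, form_add_right, form_smul_left, form_smul_right, form_self, hvv,
      form_skew v' v]
    ring
  · rw [form_add_right, form_add_right, form_smul_right, form_smul_right, hu1, hu2, mul_zero, mul_zero,
      add_zero, add_zero]
    exact hd

variable {Ω : Type*} [MulAction ↥(Matrix.symplecticGroup (Fin m) F) Ω] [Fintype Ω]
  [MulAction.IsPretransitive ↥(Matrix.symplecticGroup (Fin m) F) Ω] [Nontrivial Ω]
  (hm : 2 ≤ m) (hq : 3 ≤ Fintype.card F)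
  (hlt : Fintype.card Ω * (Fintype.card F - 1) < Fintype.card F ^ (2 * m) - 1)

include hm hq hlt

set_option maxHeartbeats 1000000 in
/-- The annihilator is not the whole perpendicular. -/
theorem perp_false (hexc : ¬(m = 2 ∧ Fintype.card F = 3)) {v a : V} (hv : v ≠ 0)
    (ha' : a ∉ Submodule.span F {v}) {y : Ω} (haD : a ∈ Dv v y)
    (hD : ∀ x, f x v = 0 → x ∈ Dv v y) : False := by
  classical
  have hR : ∀ u ∈ Rb v y, ∃ s : F, u = s • v := by
    intro u hu
    have h : u ∈ Submodule.span F {v} := mem_of_orth fun d hd => eq_zero_of_chi fun t => by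
      rw [← form_smul_left]
      exact mem_Dv.mp (hD _ (by rw [form_smul_left, mem_orth.mp hd v (Submodule.mem_span_singleton_self v),
        mul_zero])) u hu
    obtain ⟨s, rfl⟩ := Submodule.mem_span_singleton.mp h
    exact ⟨s, rfl⟩
  obtain ⟨v', hvv, -⟩ := exists_sep (show v ∉ (⊥ : Submodule F V) by simpa using hv)
  have hvv2 : f v v' = -1 := by rw [form_skew, hvv]
  have ha := perp_of_mem_Dv haD
  have horb : ∀ (g : Sp) (l : F), l ≠ 0 → mat g *ᵥ v = l • v →
      (∀ c, c / l ^ 2 ∈ Ac v y ↔ c ∈ Ac v y) → InOrb v y (g • y) := by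
    intro g l hl hg hA
    refine inOrb_of_move hm hq hlt hv ha' haD hl hg hA (hD _ ?_)
    have h := form_mulVec g (mat g⁻¹ *ᵥ (l • a)) v
    rw [mulVec_inv, hg, form_smul_left, form_smul_right, ha, mul_zero, mul_zero] at h
    exact h.symm
  -- moving the vector of a radical element into the complement
  have hproj : ∀ {u : V} (c : F), f u v = 0 →
      ∃ x c', f x v = 0 ∧ f x v' = 0 ∧ rho v u c = rho v x c' := by
    intro u c hu
    refine ⟨u + f u v' • v, c - 2 * f u v', by rw [form_add_left, form_smul_left, hu, form_self, mul_zero,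
      add_zero], by rw [form_add_left, form_smul_left, hvv2, mul_neg, mul_one, add_neg_cancel], ?_⟩
    have hs : f (f u v' • v) v = 0 := by rw [form_smul_left, form_self, mul_zero]
    have e := rho_mul hu hs c (-(2 * f u v'))
    rw [rho_smul_self, neg_add_cancel, tv_zero, mul_one, form_smul_left, form_skew u v, hu, neg_zero,
      mul_zero, add_zero] at e
    rw [e, sub_eq_add_neg]
  -- the diagonal element
  obtain ⟨ν, α, β, hν, hαβ, hκ, hAα⟩ : ∃ ν α β : F, ν ^ 2 = 1 ∧ α * β = 1 ∧ α * ν ≠ 1 ∧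
      ∀ c, c / α ^ 2 ∈ Ac v y ↔ c ∈ Ac v y := by
    by_cases h2 : (2 : F) = 0
    · obtain ⟨l, hl⟩ := Finset.exists_mem_notMem_of_card_lt_card (s := ({0, 1} : Finset F))
        (t := Finset.univ) (by rw [Finset.card_univ]; exact lt_of_le_of_lt Finset.card_le_two (by omega))
      simp only [Finset.mem_univ, Finset.mem_insert, Finset.mem_singleton, true_and, not_or] at hl
      refine ⟨1, l, l⁻¹, one_pow _, mul_inv_cancel₀ hl.1, by rw [mul_one]; exact hl.2, fun c => ?_⟩
      rw [(rigid_of_lt hm hq hlt hv ha' haD).1 h2]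
      simp [hl.1]
    · refine ⟨-1, 1, 1, neg_one_sq, one_mul 1, fun h => h2 ?_, fun c => by rw [one_pow, div_one]⟩
      linear_combination -h
  have hα : α ≠ 0 := left_ne_zero_of_mul_eq_one hαβ
  obtain ⟨g0, hg0⟩ := exists_dilation hvv hν hαβ
  have hg0v : mat g0 *ᵥ v = α • v := by
    rw [hg0, hvv, form_self]; module
  have hg0W : ∀ {x : V}, f x v = 0 → f x v' = 0 → mat g0 *ᵥ x = ν • x := by
    intro x h1 h2
    rw [hg0, form_skew x v', h1, h2]; simp
  have hg0rho : ∀ {x : V} (c : F), f x v = 0 → f x v' = 0 →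
      g0 * rho v x c * g0⁻¹ = rho v ((α * ν) • x) (α ^ 2 * c) := by
    intro x c h1 h2
    rw [rho_conj, hg0v, hg0W h1 h2, rho_smul_left (by rw [form_smul_left, h1, mul_zero]), smul_smul]
  -- a point in the orbit fixed by the diagonal element up to the centre
  obtain ⟨u, c, hu, hfix⟩ := exists_fix_of_inOrb (horb g0 α hα hg0v hAα)
  obtain ⟨x0, c0, hx0v, hx0v', ex0⟩ := hproj c hu
  rw [ex0] at hfix
  have hκ1 : α * ν - 1 ≠ 0 := sub_ne_zero.mpr hκ
  set z := (α * ν - 1)⁻¹ • x0 with hz
  have hzv : f z v = 0 := by rw [hz, form_smul_left, hx0v, mul_zero]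
  have hzv' : f z v' = 0 := by rw [hz, form_smul_left, hx0v', mul_zero]
  set y' := rho v z 0 • y with hy'
  have horbyy' : InOrb v y y' := ⟨z, 0, hzv, rfl⟩
  obtain ⟨c', hh⟩ : ∃ c', (tv v c' * g0) • y' = y' := by
    have hz2 : f ((α * ν) • z) v = 0 := by rw [form_smul_left, hzv, mul_zero]
    have hzx : f (z + x0) v = 0 := by rw [form_add_left, hzv, hx0v, add_zero]
    have hneg : f (-((α * ν) • z)) v = 0 := by rw [form_neg_left, hz2, neg_zero]
    have h1 : (rho v z 0 * (rho v x0 c0 * g0) * (rho v z 0)⁻¹) • y' = y' := by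
      rw [hy', mul_smul, mul_smul, inv_smul_smul, hfix]
    have e : rho v z 0 * (rho v x0 c0 * g0) * (rho v z 0)⁻¹ =
        rho v z 0 * rho v x0 c0 * (g0 * (rho v z 0)⁻¹ * g0⁻¹) * g0 := by group
    rw [e, rho_inv hzv, neg_zero, hg0rho 0 (by rw [form_neg_left, hzv, neg_zero])
      (by rw [form_neg_left, hzv', neg_zero]), smul_neg, mul_zero, rho_mul hzv hx0v, rho_mul hzx hneg] at h1
    have hzero : z + x0 + -((α * ν) • z) = 0 := by
      have : x0 = (α * ν - 1) • z := by rw [hz, smul_inv_smul₀ hκ1]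
      rw [this]; module
    rw [hzero, ← tv_eq_rho] at h1
    exact ⟨_, h1⟩
  have horb' : ∀ g : Sp, mat g *ᵥ v = v → InOrb v y' (g • y') := by
    intro g hg
    have hg' : mat g *ᵥ v = (1 : F) • v := by rw [one_smul]; exact hg
    exact inOrb_trans (inOrb_symm horbyy') (inOrb_trans (horb g 1 one_ne_zero hg'
      (fun c => by rw [one_pow, div_one])) (inOrb_smul one_ne_zero hg' horbyy'))
  -- elements fixing the pair fix `y'` up to the centre
  have hpair : ∀ g : Sp, mat g *ᵥ v = v → mat g *ᵥ v' = v' → ∃ d, (tv v d * g) • y' = y' := by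
    intro g hgv hgv'
    obtain ⟨u, c, hu, hk⟩ := exists_fix_of_inOrb (horb' g hgv)
    obtain ⟨x, d, hxv, hxv', ex⟩ := hproj c hu
    rw [ex] at hk
    have hcomm : g0 * g = g * g0 := ext_mulVec fun p => by
      have e1 : f v' (mat g *ᵥ p) = f v' p := by
        conv_lhs => rw [← hgv']
        rw [form_mulVec]
      have e2 : f (mat g *ᵥ p) v = f p v := by
        conv_lhs => rw [← hgv]
        rw [form_mulVec]
      rw [coe_mul', coe_mul', ← Matrix.mulVec_mulVec, ← Matrix.mulVec_mulVec, hg0, hg0, e1, e2,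
        Matrix.mulVec_add, Matrix.mulVec_add, Matrix.mulVec_smul, Matrix.mulVec_smul, Matrix.mulVec_smul,
        hgv, hgv']
    have hxκ : f ((α * ν) • x) v = 0 := by rw [form_smul_left, hxv, mul_zero]
    have htv : tv v c' * g = g * tv v c' := by
      have e := tv_conj g v c'
      rw [hgv, mul_inv_eq_iff_eq_mul] at e
      exact e.symm
    have e : (tv v c' * g0) * (rho v x d * g) * (tv v c' * g0)⁻¹ = rho v ((α * ν) • x) (α ^ 2 * d) * g := by
      calc _ = tv v c' * (g0 * rho v x d * g0⁻¹) * ((g0 * g) * g0⁻¹) * (tv v c')⁻¹ := by group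
        _ = rho v ((α * ν) • x) (α ^ 2 * d) * tv v c' * g * (tv v c')⁻¹ := by
          rw [hg0rho d hxv hxv', hcomm, mul_inv_cancel_right, rho_comm hxκ]
        _ = _ := by rw [mul_assoc _ (tv v c') g, htv, ← mul_assoc, mul_inv_cancel_right]
    have h1 : (rho v ((α * ν) • x) (α ^ 2 * d) * g) • y' = y' := by
      rw [← e, mul_smul, mul_smul (tv v c' * g0), inv_smul_eq_iff.mpr hh.symm, hk, hh]
    have h2 : (rho v ((α * ν) • x) (α ^ 2 * d) * (rho v x d)⁻¹) • y' = y' := by
      have e3 : rho v ((α * ν) • x) (α ^ 2 * d) * (rho v x d)⁻¹ =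
          rho v ((α * ν) • x) (α ^ 2 * d) * g * (rho v x d * g)⁻¹ := by group
      rw [e3, mul_smul, inv_smul_eq_iff.mpr hk.symm, h1]
    rw [rho_inv hxv, rho_mul hxκ (by rw [form_neg_left, hxv, neg_zero])] at h2
    have hmem : (α * ν) • x + -x ∈ Rb v y := by
      rw [← Rb_orb horbyy']
      exact ⟨by rw [form_add_left, form_neg_left, hxκ, hxv, neg_zero, add_zero], _, h2⟩
    obtain ⟨s, hs⟩ := hR _ hmem
    have hs0 : s = 0 := by
      have := congrArg (fun p => f p v') hs
      simpa [form_add_left, form_smul_left, form_neg_left, hxv', hvv2] using this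
    have hx : x = 0 := by
      rw [hs0, zero_smul, show (α * ν) • x + -x = (α * ν - 1) • x by module] at hs
      exact (smul_eq_zero.mp hs).resolve_left hκ1
    rw [hx, ← tv_eq_rho] at hk
    exact ⟨d, hk⟩
  -- the complement
  set W := orth (Submodule.span F {v, v'}) with hW
  have hWmem : ∀ {x : V}, x ∈ W → f x v = 0 ∧ f x v' = 0 := fun hx =>
    ⟨mem_orth.mp hx v (Submodule.subset_span (by simp)), mem_orth.mp hx v' (Submodule.subset_span (by simp))⟩
  have hWnd : Nondeg W := nondeg_perp_pair hvv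
  have hfixW : ∀ {g : Sp}, g ∈ tgroup W → mat g *ᵥ v = v ∧ mat g *ᵥ v' = v' := fun hg =>
    ⟨tgroup_fix hg v fun w hw => by rw [form_skew, (hWmem hw).1, neg_zero],
      tgroup_fix hg v' fun w hw => by rw [form_skew, (hWmem hw).2, neg_zero]⟩
  -- conjugating inside the group fixing the pair
  have hconj : ∀ {g : Sp}, g ∈ tgroup W → ∀ {w : V} {γ d : F}, w ∈ W → (tv v d * tv w γ) • y' = y' →
      (tv v d * tv (mat g *ᵥ w) γ) • y' = y' := by
    intro g hg w γ d hw h
    obtain ⟨hgv, hgv'⟩ := hfixW hg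
    obtain ⟨e, hk⟩ := hpair g hgv hgv'
    have hgw : f (mat g *ᵥ w) v = 0 := (hWmem (tgroup_mapsTo hg w hw)).1
    have e1 : (tv v e * g) * (tv v d * tv w γ) * (tv v e * g)⁻¹ = tv v d * tv (mat g *ᵥ w) γ := by
      have hv' : mat (tv v e * g) *ᵥ v = v := by
        rw [coe_mul', ← Matrix.mulVec_mulVec, hgv, tv_fix _ _ (form_self v)]
      have hw' : mat (tv v e * g) *ᵥ w = mat g *ᵥ w := by
        rw [coe_mul', ← Matrix.mulVec_mulVec, tv_fix _ _ hgw]
      rw [← conj_mul, tv_conj, tv_conj, hv', hw']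
    rw [← e1, mul_smul, mul_smul (tv v e * g), inv_smul_eq_iff.mpr hk.symm, h, hk]
  have hsep : ∀ S : Finset V, S.card ≤ 3 → 3 ≤ m →
      ∀ u, ∃ x, x ∈ orth (Submodule.span F (S : Set V)) ∧ x ∉ Submodule.span F {u} := by
    intro S hS hm3 u
    by_contra hno
    push Not at hno
    have h1 := finrank_orth (Submodule.span F (S : Set V))
    have h2 : Module.finrank F (Submodule.span F (S : Set V)) ≤ S.card := finrank_span_finset_le_card S
    have h3 := (Submodule.finrank_mono hno).trans (finrank_span_le_card ({u} : Set V))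
    simp at h3
    omega
  by_cases hq4 : 4 ≤ Fintype.card F
  · obtain ⟨μ, hμ0, hμ2⟩ := exists_pow_two_ne (F := F) hq4
    obtain ⟨u, hu, hu0⟩ : ∃ u ∈ W, u ≠ 0 := by
      refine Submodule.exists_mem_ne_zero_of_ne_bot fun h => ?_
      have h1 := finrank_orth (Submodule.span F {v, v'})
      rw [← hW, h, finrank_bot] at h1
      have h2 : Module.finrank F (Submodule.span F {v, v'}) ≤ ({v, v'} : Finset V).card := by
        have := finrank_span_finset_le_card (R := F) ({v, v'} : Finset V)
        rwa [Finset.coe_insert, Finset.coe_singleton] at this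
      have := (h2.trans Finset.card_le_two)
      omega
    refine not_fixes hq hm hlt hu0 y' fun γ => ?_
    have hne : μ ^ 2 - 1 ≠ 0 := sub_ne_zero.mpr hμ2
    obtain ⟨g, hg, hgu⟩ := exists_move hWnd hu hu0 (W.smul_mem μ hu) (smul_ne_zero hμ0 hu0)
    obtain ⟨d, hd⟩ := hpair (tv u (γ / (μ ^ 2 - 1))) (tv_fix _ _ (by rw [form_skew, (hWmem hu).1, neg_zero]))
      (tv_fix _ _ (by rw [form_skew, (hWmem hu).2, neg_zero]))
    have h2 := hconj hg hu hd
    rw [hgu, tv_smul] at h2
    have e : tv v d * tv u (μ ^ 2 * (γ / (μ ^ 2 - 1))) = tv u γ * (tv v d * tv u (γ / (μ ^ 2 - 1))) := by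
      rw [← mul_assoc, show tv u γ * tv v d = tv v d * tv u γ from
        (CfsgLib.MinIndexSpTwo.tv_commute (hWmem hu).1 _ _).eq, mul_assoc, tv_mul]
      congr 2
      field_simp
      ring
    rw [e, mul_smul, hd] at h2
    exact h2
  · have hq3 : Fintype.card F = 3 := by omega
    have hm3 : 3 ≤ m := by
      by_contra h
      exact hexc ⟨by omega, hq3⟩
    obtain ⟨u, hu, hu0⟩ : ∃ x, x ∈ W ∧ x ∉ Submodule.span F {(0 : V)} := by
      obtain ⟨x, hx, hx'⟩ := hsep {v, v'} (Finset.card_le_two.trans (by norm_num)) hm3 0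
      exact ⟨x, by rwa [Finset.coe_insert, Finset.coe_singleton] at hx, hx'⟩
    replace hu0 : u ≠ 0 := fun h => hu0 (h ▸ Submodule.mem_span_singleton_self _)
    obtain ⟨w, hw, hw'⟩ := hsep {v, v', u} Finset.card_le_three hm3 u
    simp only [Finset.coe_insert, Finset.coe_singleton] at hw
    have hwu : f w u = 0 := mem_orth.mp hw u (Submodule.subset_span (by simp))
    have huw : f u w = 0 := by rw [form_skew, hwu, neg_zero]
    have hwW : w ∈ W := mem_orth.mpr fun x hx => mem_orth.mp hw x
      (Submodule.span_mono (by intro p hp; simp at hp ⊢; tauto) hx)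
    have hw0 : w ≠ 0 := fun h => hw' (h ▸ zero_mem _)
    obtain ⟨c, hc⟩ := hpair (tv u 1) (tv_fix _ _ (by rw [form_skew, (hWmem hu).1, neg_zero]))
      (tv_fix _ _ (by rw [form_skew, (hWmem hu).2, neg_zero]))
    have hall : ∀ x ∈ W, x ≠ 0 → (tv v c * tv x 1) • y' = y' := by
      intro x hx hx0
      obtain ⟨g, hg, hgu⟩ := exists_move hWnd hu hu0 hx hx0
      rw [← hgu]
      exact hconj hg hu hc
    have hmul : ∀ {x z : V}, x ∈ W → z ∈ W →
        tv v c * tv x 1 * (tv v c * tv z 1) = tv v (2 * c) * (tv x 1 * tv z 1) := by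
      intro x z hx hz
      rw [mul_assoc (tv v c), ← mul_assoc (tv x 1), show tv x 1 * tv v c = tv v c * tv x 1 from
        (CfsgLib.MinIndexSpTwo.tv_commute (hWmem hx).1 _ _).eq, mul_assoc (tv v c) (tv x 1),
        ← mul_assoc (tv v c), tv_mul, ← two_mul]
    have hplus : u + w ≠ 0 := fun h => hw' (Submodule.mem_span_singleton.mpr
      ⟨-1, by rw [neg_one_smul]; exact neg_eq_of_add_eq_zero_right h⟩)
    have hminus : u + -w ≠ 0 := fun h => hw' (Submodule.mem_span_singleton.mpr
      ⟨1, by rw [one_smul]; rwa [add_neg_eq_zero] at h⟩)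
    have huu : (tv v (2 * c) * tv u 2) • y' = y' := by
      rw [← one_add_one_eq_two (R := F), ← tv_mul u, one_add_one_eq_two, ← hmul hu hu, mul_smul,
        hall u hu hu0, hall u hu hu0]
    have hww : (tv v (2 * c) * tv w 2) • y' = y' := by
      rw [← one_add_one_eq_two (R := F), ← tv_mul w, one_add_one_eq_two, ← hmul hwW hwW, mul_smul,
        hall w hwW hw0, hall w hwW hw0]
    have hpm : (tv v (2 * c) * (tv (u + w) 1 * tv (u + -w) 1)) • y' = y' := by
      rw [← hmul (add_mem hu hwW) (add_mem hu (neg_mem hwW)), mul_smul,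
        hall _ (add_mem hu (neg_mem hwW)) hminus, hall _ (add_mem hu hwW) hplus]
    have hid : tv (u + w) 1 * tv (u + -w) 1 = tv u 2 * tv w 2 := ext_mulVec fun p => by
      rw [coe_mul', coe_mul', ← Matrix.mulVec_mulVec, ← Matrix.mulVec_mulVec]
      simp only [tv_mulVec, form_add_left, form_add_right, form_smul_left, ← neg_one_smul F w,
        form_smul_right, form_self, huw, hwu]
      module
    rw [hid] at hpm
    have h4 : (tv v (2 * c) * tv u 2 * (tv v (2 * c) * tv w 2)) • y' = y' := by rw [mul_smul, hww, huu]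
    rw [mul_assoc (tv v (2 * c)), ← mul_assoc (tv u 2), show tv u 2 * tv v (2 * c) = tv v (2 * c) * tv u 2 from
      (CfsgLib.MinIndexSpTwo.tv_commute (hWmem hu).1 _ _).eq, mul_assoc (tv v (2 * c)) (tv u 2),
      mul_smul, hpm] at h4
    have h3 : (3 : F) = 0 := by
      have := Nat.cast_card_eq_zero F
      rwa [hq3] at this
    have hcA : tv v c • y' = y' := by
      rw [show c = 2 * c + 2 * c by linear_combination (-c) * h3, ← tv_mul, mul_smul, h4, h4]
    have hu1 : (1 : F) ∈ Ac u y' := by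
      rw [mem_Ac]
      have h := hall u hu hu0
      rw [mul_smul] at h
      exact smul_left_cancel _ (h.trans hcA.symm)
    refine Ac_ne_top hm hq hlt hu0 y' (AddSubgroup.eq_top_of_card_eq _ ?_)
    have hdvd := AddSubgroup.card_addSubgroup_dvd_card (Ac u y')
    rw [Nat.card_eq_fintype_card (α := F), hq3] at hdvd ⊢
    rcases (Nat.dvd_prime Nat.prime_three).mp hdvd with h | h
    · rw [AddSubgroup.eq_bot_of_card_eq _ h, AddSubgroup.mem_bot] at hu1
      exact absurd hu1 one_ne_zero
    · exact h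

end CfsgLib.MinIndexSp
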