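import Cfsg.Agent.MinIndexSp.Plane
import Cfsg.Agent.MinIndexSp.Perp

/-!
The minimal degree of `Sp_2m(q)` for `q ≥ 3`.
-/

set_option autoImplicit false
set_option linter.style.haveILetI false
set_option linter.unusedSectionVars false

namespace CfsgLib.MinIndexSp

open Matrix CfsgLib.SpGeom
open CfsgLib.MinIndexSpTwo (orth mem_orth card_orth card_sub exists_sep mem_of_orth)

variable {F : Type*} [Field F] [Fintype F] {m : ℕ}

local notation "V" => (Fin m ⊕ Fin m → F)
local notation "Sp" => Matrix.symplecticGroup (Fin m) F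
local notation "f" => Cfsg.sympForm m F
local notation "mat" A:max => ((A : Sp) : Matrix (Fin m ⊕ Fin m) (Fin m ⊕ Fin m) F)

variable {Ω : Type*} [MulAction ↥(Matrix.symplecticGroup (Fin m) F) Ω]

/-- The central coordinates of the radical elements with vector in the line through `v` fixing `y`. -/
def Dset (v w : Fin m ⊕ Fin m → F) (y : Ω) : Set F := {d | ∃ s : F, rho w (s • v) d • y = y}

variable [Fintype Ω] [MulAction.IsPretransitive ↥(Matrix.symplecticGroup (Fin m) F) Ω] [Nontrivial Ω]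
  (hm : 2 ≤ m) (hq : 3 ≤ Fintype.card F)
  (hlt : Fintype.card Ω * (Fintype.card F - 1) < Fintype.card F ^ (2 * m) - 1)

include hm hq hlt

set_option maxHeartbeats 1000000 in
/-- Not every radical acts through its centre. -/
theorem central_false (y : Ω) (hB : ∀ v : V, v ≠ 0 → ∀ u, f u v = 0 → ∃ c, rho v u c • y = y) : False := by
  classical
  obtain ⟨v, hv⟩ : ∃ v : V, v ≠ 0 := by
    haveI : Nonempty (Fin m) := ⟨⟨0, by omega⟩⟩
    exact exists_ne 0
  obtain ⟨u0, hu0, hu0'⟩ : ∃ u : V, f u v = 0 ∧ u ∉ Submodule.span F {v} := by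
    by_contra h
    push Not at h
    have h1 := finrank_orth (Submodule.span F {v})
    have h2 : orth (Submodule.span F {v}) ≤ Submodule.span F {v} := fun x hx =>
      h x (mem_orth.mp hx v (Submodule.mem_span_singleton_self v))
    have h3 := Submodule.finrank_mono h2
    rw [finrank_span_singleton hv] at h1 h3
    omega
  obtain ⟨d0, hd0, hd0'⟩ := exists_sep hu0'
  have hd0v := hd0' v (Submodule.mem_span_singleton_self v)
  have hR : ∀ {x : V}, f x v = 0 → x ∈ Rb v y := fun hx => ⟨hx, hB v hv _ hx⟩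
  by_cases h2 : (2 : F) = 0
  swap
  · refine Ac_top_false hm hq hlt hv (y := y) h2 fun t => ?_
    have := two_form_mem_Ac (hR (x := t • d0) (by rw [form_smul_left, hd0v, mul_zero])) (hR hu0)
    rwa [form_smul_left, hd0, mul_one, mul_comm] at this
  have hstep : ∀ {v w : V}, v ≠ 0 → w ∉ Submodule.span F {v} → f v w = 0 →
      ∀ d ∈ Dset v w y, ∀ t : F, rho v ((d * t) • w) (d * t ^ 2) • y = y := by
    intro v w hv hw hvw d ⟨s, hs⟩ t
    obtain ⟨z, hzw, hz⟩ := exists_sep hw
    have hzv := hz v (Submodule.mem_span_singleton_self v)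
    obtain ⟨c, hc⟩ := hB v hv (t • z) (by rw [form_smul_left, hzv, mul_zero])
    have h := rho_commutator hvw hzw hzv t c s d
    rw [show -(d * t) = d * t by linear_combination (-(d * t)) * h2,
      show d * t ^ 2 - 2 * t * s = d * t ^ 2 by rw [h2]; ring] at h
    rw [← h, mul_smul, mul_smul, mul_smul, inv_smul_eq_iff.mpr hs.symm, inv_smul_eq_iff.mpr hc.symm, hs, hc]
  have hAc : ∀ {v w : V}, v ≠ 0 → w ∉ Submodule.span F {v} → f v w = 0 →
      ∀ d ∈ Dset v w y, d ≠ 0 → ∀ d' ∈ Dset v w y, d' ≠ 0 → d = d' := by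
    intro v w hv hw hvw d hd hd0 d' hd' hd'0
    by_contra hne
    have hwv : f w v = 0 := by rw [form_skew, hvw, neg_zero]
    have hk : d⁻¹ - d'⁻¹ ≠ 0 := sub_ne_zero.mpr fun h => hne (inv_injective h)
    refine Ac_top_false hm hq hlt hv (y := y) hk fun x => ?_
    obtain ⟨t, rfl⟩ := exists_sq h2 x
    have h1 := hstep hv hw hvw d hd (t / d)
    have h2' := hstep hv hw hvw d' hd' (t / d')
    rw [mul_div_cancel₀ _ hd0] at h1
    rw [mul_div_cancel₀ _ hd'0] at h2'
    have := sub_mem_Ac (by rw [form_smul_left, hwv, mul_zero]) h1 h2'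
    convert this using 1
    field_simp
  have hswap : ∀ {v w : V}, v ≠ 0 → w ∉ Submodule.span F {v} → v ∉ Submodule.span F {w} → w ≠ 0 →
      f v w = 0 → ∀ d ∈ Dset v w y, d = 0 := by
    intro v w hv hw hv' hw0 hvw d hd
    by_contra hd0
    have hwv : f w v = 0 := by rw [form_skew, hvw, neg_zero]
    obtain ⟨l, hl⟩ := Finset.exists_mem_notMem_of_card_lt_card (s := ({0, 1} : Finset F))
      (t := Finset.univ) (by rw [Finset.card_univ]; exact lt_of_le_of_lt Finset.card_le_two (by omega))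
    simp only [Finset.mem_univ, Finset.mem_insert, Finset.mem_singleton, true_and, not_or] at hl
    obtain ⟨r, hr⟩ := exists_sq h2 l
    have hr0 : r ≠ 0 := fun h => hl.1 (by rw [← hr, h, zero_pow two_ne_zero])
    have h1 := hstep hv hw hvw d hd (1 / d)
    have h2' := hstep hv hw hvw d hd (r / d)
    have e := hAc hw0 hv' hwv _ ⟨_, h1⟩ (by simp [hd0]) _ ⟨_, h2'⟩ (by simp [hd0, hr0])
    apply hl.2
    rw [← hr]
    field_simp at e
    exact e.symm
  have hperp : ∀ x : V, f x v = 0 → x ∉ Submodule.span F {v} → rho v x 0 • y = y := by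
    intro x hx hx'
    have hx0 : x ≠ 0 := fun h => hx' (h ▸ zero_mem _)
    have hvx : v ∉ Submodule.span F {x} := fun h => by
      obtain ⟨s, rfl⟩ := Submodule.mem_span_singleton.mp h
      have hs : s ≠ 0 := fun h => hv (by rw [h, zero_smul])
      exact hx' (Submodule.mem_span_singleton.mpr ⟨s⁻¹, inv_smul_smul₀ hs x⟩)
    obtain ⟨c, hc⟩ := hB v hv x hx
    have hc0 := hswap hx0 hvx hx' hv hx c ⟨1, by rw [one_smul]; exact hc⟩
    rwa [hc0] at hc
  have hAv : ∀ c ∈ Ac v y, c = 0 := by
    intro c hc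
    have hu00 : u0 ≠ 0 := fun h => hu0' (h ▸ zero_mem _)
    have hvx : v ∉ Submodule.span F {u0} := fun h => by
      obtain ⟨s, rfl⟩ := Submodule.mem_span_singleton.mp h
      have hs : s ≠ 0 := fun h => hv (by rw [h, zero_smul])
      exact hu0' (Submodule.mem_span_singleton.mpr ⟨s⁻¹, inv_smul_smul₀ hs u0⟩)
    exact hswap hu00 hvx hu0' hv hu0 c ⟨0, by rw [zero_smul, ← tv_eq_rho]; exact hc⟩
  have hd00 : d0 ∉ Submodule.span F {v} := fun h => by
    obtain ⟨s, rfl⟩ := Submodule.mem_span_singleton.mp h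
    rw [form_smul_left, form_skew u0 v, hu0, neg_zero, mul_zero] at hd0
    exact zero_ne_one hd0
  have hs : f (u0 + d0) v = 0 := by rw [form_add_left, hu0, hd0v, add_zero]
  have hs' : u0 + d0 ∉ Submodule.span F {v} := fun h => by
    obtain ⟨s, hs⟩ := Submodule.mem_span_singleton.mp h
    have e : f (u0 + d0) u0 = 0 := by rw [← hs, form_smul_left, form_skew u0 v, hu0, neg_zero, mul_zero]
    rw [form_add_left, form_self, zero_add, hd0] at e
    exact one_ne_zero e
  have h1 : rho v (u0 + d0) 1 • y = y := by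
    rw [show rho v (u0 + d0) 1 = rho v u0 0 * rho v d0 0 by rw [rho_mul hu0 hd0v, hd0, add_zero, zero_add],
      mul_smul, hperp d0 hd0v hd00, hperp u0 hu0 hu0']
  have := hAv _ (sub_mem_Ac hs h1 (hperp _ hs hs'))
  rw [sub_zero] at this
  exact one_ne_zero this

/-- The action has at least as many points as the projective space. -/
theorem not_lt (hexc : ¬(m = 2 ∧ Fintype.card F = 3)) : False := by
  classical
  obtain ⟨y⟩ : Nonempty Ω := inferInstance
  by_cases h : ∀ v : V, v ≠ 0 → ∀ a ∈ Dv v y, a ∈ Submodule.span F {v}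
  · refine central_false hm hq hlt y fun v hv u hu => (mem_Rb.mp (mem_Rb_of_perp_Dv (v := v) fun d hd => ?_)).2
    obtain ⟨s, rfl⟩ := Submodule.mem_span_singleton.mp (h v hv d hd)
    rw [form_smul_right, hu, mul_zero]
  push Not at h
  obtain ⟨v, hv, a, haD, ha'⟩ := h
  by_cases hb : ∃ b ∈ Dv v y, b ∉ Submodule.span F {v, a}
  · obtain ⟨b, hbD, hb⟩ := hb
    exact perp_false hm hq hlt hexc hv ha' haD (Dv_full hm hq hlt hv ha' haD hbD hb)
  · push Not at hb
    exact plane_false hm hq hlt hexc hv ha' haD hb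

end CfsgLib.MinIndexSp
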