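import Cfsg.Agent.MinIndexSp.Radical

/-!
An action of `Sp_2m(q)` on fewer points than the projective space: counting the orbits of the radical
forces every point to be rigid.
-/

set_option autoImplicit false
set_option linter.style.haveILetI false
set_option linter.unusedSectionVars false

namespace CfsgLib.MinIndexSp

open Matrix CfsgLib.SpGeom
open CfsgLib.MinIndexSpTwo (orth mem_orth card_orth card_sub exists_sep mem_of_orth)

variable {F : Type*} [Field F] [Fintype F] {m : ℕ}

local notation "V" => (Fin m ⊕ Fin m → F)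
local notation "Sp" => Matrix.symplecticGroup (Fin m) F
local notation "f" => Cfsg.sympForm m F
local notation "mat" A:max => ((A : Sp) : Matrix (Fin m ⊕ Fin m) (Fin m ⊕ Fin m) F)

/-- An additive subgroup invariant under a set of multipliers that generates the field is trivial. -/
theorem eq_bot_or_top_of_mul {A : AddSubgroup F} (h : ∀ x : F, ∀ c ∈ A, x * c ∈ A) : A = ⊥ ∨ A = ⊤ := by
  by_cases hA : A = ⊥
  · exact Or.inl hA
  refine Or.inr ((AddSubgroup.eq_top_iff' A).mpr fun x => ?_)
  obtain ⟨c, hc, hc0⟩ := A.bot_or_exists_ne_zero.resolve_left hA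
  have := h (x / c) c hc
  rwa [div_mul_cancel₀ _ hc0] at this

theorem exists_sq (h2 : (2 : F) = 0) (x : F) : ∃ l : F, l ^ 2 = x := by
  obtain ⟨r, hr⟩ := FiniteField.isSquare_of_char_two
    (ringChar.eq_iff.mpr (CharTwo.of_one_ne_zero_of_two_eq_zero one_ne_zero h2)) x
  exact ⟨r, by rw [hr, sq]⟩

/-- An additive subgroup invariant under all squares is trivial. -/
theorem eq_bot_or_top_of_sq {A : AddSubgroup F} (h : ∀ l : F, ∀ c ∈ A, l ^ 2 * c ∈ A) :
    A = ⊥ ∨ A = ⊤ := by
  refine eq_bot_or_top_of_mul fun x c hc => ?_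
  by_cases h2 : (2 : F) = 0
  · obtain ⟨l, rfl⟩ := exists_sq h2 x
    exact h l c hc
  · have e : x * c = ((x + 1) / 2) ^ 2 * c - ((x - 1) / 2) ^ 2 * c := by field_simp; ring
    rw [e]
    exact sub_mem (h _ c hc) (h _ c hc)

/-- The annihilator in the field of an additive subgroup. -/
noncomputable def annF (A : AddSubgroup F) : AddSubgroup F := annih pairF pairF_add A

theorem card_annF (A : AddSubgroup F) : Nat.card (annF A) * Nat.card A = Fintype.card F := by
  rw [annF, card_annih_mul pairF_add pairF_nd, Nat.card_eq_fintype_card]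

theorem two_le_card_annF {A : AddSubgroup F} (hA : A ≠ ⊤) : 2 ≤ Nat.card (annF A) := by
  by_contra h
  have h1 : 0 < Nat.card (annF A) := Nat.card_pos
  have h2 := card_annF A
  rw [show Nat.card (annF A) = 1 by omega, one_mul, ← Nat.card_eq_fintype_card] at h2
  exact hA (AddSubgroup.eq_top_of_card_eq A h2)

variable {Ω : Type*} [MulAction ↥(Matrix.symplecticGroup (Fin m) F) Ω]

/-- Orbit representatives: one for each multiple of the central stabiliser and each of the given points. -/
theorem exists_reps {v a : V} (hv : v ≠ 0) (ha : f a v = 0) (ha' : a ∉ Submodule.span F {v}) {y : Ω}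
    (_haD : a ∈ Dv v y) :
    ∀ l : F, l ≠ 0 → ∃ g : Sp, mat g *ᵥ v = l • v ∧ (∀ z : Ω, a ∈ Dv v z → a ∈ Dv v (g • z)) ∧
      ∀ z : Ω, Ac v z = Ac v y → ∀ c, c ∈ Ac v (g • z) ↔ c / l ^ 2 ∈ Ac v y := by
  intro l hl
  obtain ⟨g, hgv, hga⟩ := exists_move_two (li_two hv ha') ha (li_two_smul hl hl (li_two hv ha'))
    (by rw [form_smul_left, form_smul_right, ha, mul_zero, mul_zero])
  refine ⟨g, hgv, fun z hz => ?_, fun z hz c => by rw [mem_Ac_smul hl hgv, hz]⟩
  rw [mem_Dv_smul hl hgv, ← hga, inv_mulVec]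
  exact hz

variable [Fintype Ω]

open Classical in
/-- The distinct multiples of the central stabiliser by squares, with the resulting weight bound. -/
theorem weight_bound {v a : V} (hv : v ≠ 0) (ha : f a v = 0) (ha' : a ∉ Submodule.span F {v})
    {y : Ω} (haD : a ∈ Dv v y) (I : Finset Ω) (hI : ∀ z ∈ I, a ∈ Dv v z ∧ Ac v z = Ac v y)
    (hdist : ∀ z ∈ I, ∀ z' ∈ I, InOrb v z z' → z = z') :
    let J : Finset (Finset F) := ((Finset.univ : Finset F).filter (· ≠ 0)).image
      fun l => Finset.univ.filter fun c => c / l ^ 2 ∈ Ac v y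
    ((J.card * I.card * Nat.card (annF (Ac v y)) : ℕ) : ℚ) ≤ wt (Ω := Ω) v a := by
  intro J
  have hJ : ∀ j ∈ J, ∃ g : Sp, ∃ l : F, l ≠ 0 ∧ mat g *ᵥ v = l • v ∧
      (∀ z : Ω, a ∈ Dv v z → a ∈ Dv v (g • z)) ∧
      ∀ z : Ω, Ac v z = Ac v y → ∀ c, c ∈ Ac v (g • z) ↔ c ∈ j := by
    intro j hj
    obtain ⟨l, hl, rfl⟩ := Finset.mem_image.mp hj
    have hl0 := (Finset.mem_filter.mp hl).2
    obtain ⟨g, hgv, hgD, hgA⟩ := exists_reps hv ha ha' haD l hl0
    exact ⟨g, l, hl0, hgv, hgD, fun z hz c => by rw [hgA z hz c]; simp⟩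
  choose gJ lJ hl hgv hgD hgA using hJ
  have h := le_wt (Ω := Ω) hv (a := a) (J ×ˢ I)
    (fun p => if hp : p.1 ∈ J then gJ p.1 hp • p.2 else p.2) ?_ ?_ (e := Nat.card (annF (Ac v y))) ?_
  · rwa [Finset.card_product] at h
  · rintro ⟨j, z⟩ hp ⟨j', z'⟩ hp' h
    obtain ⟨hj, hz⟩ := Finset.mem_product.mp hp
    obtain ⟨hj', hz'⟩ := Finset.mem_product.mp hp'
    dsimp only at h hj hj' hz hz'
    rw [dif_pos hj, dif_pos hj'] at h
    obtain rfl : j = j' := by
      ext c
      rw [← hgA j hj z (hI z hz).2, ← hgA j' hj' z' (hI z' hz').2, Ac_orb h]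
    have hg : mat (gJ j hj)⁻¹ *ᵥ v = (lJ j hj)⁻¹ • v := by
      conv_lhs => rw [show v = (lJ j hj)⁻¹ • (mat (gJ j hj) *ᵥ v) by rw [hgv j hj, inv_smul_smul₀ (hl j hj)]]
      rw [Matrix.mulVec_smul, inv_mulVec]
    have h' := inOrb_smul (inv_ne_zero (hl j hj)) hg h
    rw [inv_smul_smul, inv_smul_smul] at h'
    exact Prod.ext rfl (hdist z hz z' hz' h')
  · rintro ⟨j, z⟩ hp
    obtain ⟨hj, hz⟩ := Finset.mem_product.mp hp
    dsimp only at hj hz ⊢
    rw [dif_pos hj]
    exact hgD j hj z (hI z hz).1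
  · rintro ⟨j, z⟩ hp
    obtain ⟨hj, hz⟩ := Finset.mem_product.mp hp
    dsimp only at hj hz ⊢
    rw [dif_pos hj]
    have e : Nat.card (Ac v (gJ j hj • z)) = Nat.card (Ac v y) := by
      have hl2 : lJ j hj ^ 2 ≠ 0 := pow_ne_zero 2 (hl j hj)
      refine Nat.card_congr ((Equiv.mulRight₀ _ (inv_ne_zero hl2)).subtypeEquiv fun c => ?_)
      rw [mem_Ac_smul (hl j hj) (hgv j hj), (hI z hz).2, Equiv.mulRight₀_apply, div_eq_mul_inv]
    rw [e, card_annF]

variable [MulAction.IsPretransitive ↥(Matrix.symplecticGroup (Fin m) F) Ω] [Nontrivial Ω]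

theorem wt_lt (hm : 2 ≤ m) (hq : 3 ≤ Fintype.card F)
    (hlt : Fintype.card Ω * (Fintype.card F - 1) < Fintype.card F ^ (2 * m) - 1)
    {v a : V} (hv : v ≠ 0) (ha : f a v = 0) (ha' : a ∉ Submodule.span F {v}) :
    wt (Ω := Ω) v a < (Fintype.card F : ℚ) + 2 := by
  by_contra h
  push Not at h
  set q := Fintype.card F
  have hpow : (0 : ℚ) < (q : ℚ) ^ (2 * m - 2) := pow_pos (Nat.cast_pos.mpr Fintype.card_pos) _
  have h1 := (wt_le_card (Ω := Ω) hv hm ha ha').1
  have h2 : (((q + 2) * q ^ (2 * m - 2) : ℕ) : ℚ) ≤ (Fintype.card Ω : ℚ) := by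
    push_cast
    exact le_trans (mul_le_mul_of_nonneg_right h hpow.le) h1
  rw [Nat.cast_le] at h2
  have h3 : (q + 2) * q ^ (2 * m - 2) * (q - 1) < q ^ (2 * m) - 1 :=
    lt_of_le_of_lt (Nat.mul_le_mul_right _ h2) hlt
  have h4 : q ^ (2 * m) ≤ (q + 2) * q ^ (2 * m - 2) * (q - 1) := by
    rw [show 2 * m = 2 * m - 2 + 2 by omega, pow_add, show 2 * m - 2 + 2 - 2 = 2 * m - 2 by omega,
      mul_comm (q + 2), mul_assoc]
    refine Nat.mul_le_mul_left _ ?_
    obtain ⟨k, hk⟩ : ∃ k, q = k + 1 := ⟨q - 1, by omega⟩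
    rw [hk, Nat.add_sub_cancel]
    nlinarith
  omega

theorem Ac_ne_top (hm : 2 ≤ m) (hq : 3 ≤ Fintype.card F)
    (hlt : Fintype.card Ω * (Fintype.card F - 1) < Fintype.card F ^ (2 * m) - 1)
    {v : V} (hv : v ≠ 0) (y : Ω) : Ac v y ≠ ⊤ := fun h =>
  not_fixes hq hm hlt hv y fun c => mem_Ac.mp (h ▸ AddSubgroup.mem_top c)

theorem Ac_top_false (hm : 2 ≤ m) (hq : 3 ≤ Fintype.card F)
    (hlt : Fintype.card Ω * (Fintype.card F - 1) < Fintype.card F ^ (2 * m) - 1)
    {v : V} (hv : v ≠ 0) {y : Ω} {k : F} (hk : k ≠ 0) (h : ∀ t : F, t * k ∈ Ac v y) : False :=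
  Ac_ne_top hm hq hlt hv y ((AddSubgroup.eq_top_iff' _).mpr fun x => by
    have := h (x / k)
    rwa [div_mul_cancel₀ _ hk] at this)

open Classical in
/-- A point with a vector in its annihilator is rigid, and in characteristic two its centre acts freely. -/
theorem rigid_of_lt (hm : 2 ≤ m) (hq : 3 ≤ Fintype.card F)
    (hlt : Fintype.card Ω * (Fintype.card F - 1) < Fintype.card F ^ (2 * m) - 1)
    {v a : V} (hv : v ≠ 0) (ha' : a ∉ Submodule.span F {v}) {y : Ω} (haD : a ∈ Dv v y) :
    ((2 : F) = 0 → Ac v y = ⊥) ∧ ∀ z : Ω, a ∈ Dv v z → Ac v z = Ac v y → InOrb v y z := by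
  have ha := perp_of_mem_Dv haD
  set q := Fintype.card F with hq'
  set A := Ac v y with hAdef
  have hA : A ≠ ⊤ := Ac_ne_top hm hq hlt hv y
  set e := Nat.card (annF A) with he
  have he2 : 2 ≤ e := two_le_card_annF hA
  set J : Finset (Finset F) := ((Finset.univ : Finset F).filter (· ≠ 0)).image
      fun l => Finset.univ.filter fun c => c / l ^ 2 ∈ Ac v y with hJ
  have hK := wt_lt (Ω := Ω) hm hq hlt hv ha ha'
  have hbound : ∀ I : Finset Ω, (∀ z ∈ I, a ∈ Dv v z ∧ Ac v z = A) →
      (∀ z ∈ I, ∀ z' ∈ I, InOrb v z z' → z = z') → J.card * I.card * e < q + 2 := by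
    intro I hI hd
    have h := (weight_bound hv ha ha' haD I hI hd).trans_lt hK
    exact_mod_cast h
  have hJpos : 1 ≤ J.card :=
    Finset.card_pos.mpr ⟨_, Finset.mem_image_of_mem _
      (Finset.mem_filter.mpr ⟨Finset.mem_univ _, one_ne_zero⟩)⟩
  have hmemJ : ∀ l : F, l ≠ 0 → (Finset.univ.filter fun c => c / l ^ 2 ∈ A) ∈ J := fun l hl =>
    Finset.mem_image_of_mem _ (Finset.mem_filter.mpr ⟨Finset.mem_univ _, hl⟩)
  -- the annihilators of the multiples cover the multiples of a non-zero element by squares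
  have hcover : A ≠ ⊥ → ((Finset.univ.filter (· ≠ (0 : F))).image fun l => l ^ 2).card ≤ J.card * (e - 1) := by
    intro _
    obtain ⟨b0, hb0, hb00⟩ : ∃ b ∈ annF A, b ≠ 0 := by
      refine (annF A).bot_or_exists_ne_zero.resolve_left fun h => ?_
      rw [he, h, AddSubgroup.card_bot] at he2
      omega
    let Bj : Finset F → Finset F := fun j =>
      (Finset.univ.filter fun b => ∀ c ∈ j, chi F (b * c) = 1).erase 0
    have hBj : ∀ j ∈ J, (Bj j).card ≤ e - 1 := by
      intro j hj
      obtain ⟨l, hl, rfl⟩ := Finset.mem_image.mp hj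
      have hl0 := (Finset.mem_filter.mp hl).2
      rw [Finset.card_erase_of_mem (by simp)]
      refine Nat.sub_le_sub_right (le_of_eq ?_) 1
      rw [he, Nat.card_eq_fintype_card, Fintype.card_subtype]
      refine Finset.card_equiv (Equiv.mulRight₀ (l ^ 2) (pow_ne_zero 2 hl0)) fun b => ?_
      simp only [Finset.mem_filter, Finset.mem_univ, true_and, Equiv.mulRight₀_apply]
      constructor
      · intro h c hc
        have := h (c * l ^ 2) (by rwa [mul_div_cancel_right₀ _ (pow_ne_zero 2 hl0)])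
        rwa [pairF_apply, mul_assoc, mul_comm (l ^ 2)]
      · intro h c hc
        have := h _ hc
        rw [pairF_apply] at this
        rwa [mul_assoc, mul_div_cancel₀ _ (pow_ne_zero 2 hl0)] at this
    have hsub : ((Finset.univ.filter (· ≠ (0 : F))).image fun l => l ^ 2 * b0) ⊆ J.biUnion Bj := by
      intro x hx
      obtain ⟨l, hl, rfl⟩ := Finset.mem_image.mp hx
      have hl0 := (Finset.mem_filter.mp hl).2
      refine Finset.mem_biUnion.mpr ⟨_, hmemJ l⁻¹ (inv_ne_zero hl0), Finset.mem_erase.mpr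
        ⟨mul_ne_zero (pow_ne_zero 2 hl0) hb00, Finset.mem_filter.mpr ⟨Finset.mem_univ _, fun c hc => ?_⟩⟩⟩
      have hc' := (Finset.mem_filter.mp hc).2
      rw [inv_pow, div_inv_eq_mul] at hc'
      have := hb0 _ hc'
      rw [pairF_apply] at this
      rwa [mul_comm (l ^ 2) b0, mul_assoc, mul_comm (l ^ 2)]
    have h1 : ((Finset.univ.filter (· ≠ (0 : F))).image fun l => l ^ 2 * b0).card =
        ((Finset.univ.filter (· ≠ (0 : F))).image fun l => l ^ 2).card := by
      rw [show (fun l : F => l ^ 2 * b0) = (fun x => x * b0) ∘ fun l => l ^ 2 from rfl, ← Finset.image_image]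
      exact Finset.card_image_of_injective _ (mul_left_injective₀ hb00)
    rw [← h1]
    exact (Finset.card_le_card hsub).trans (Finset.card_biUnion_le_card_mul _ _ _ hBj)
  have hnz : (Finset.univ.filter (· ≠ (0 : F))).card = q - 1 := by
    rw [Finset.filter_ne', Finset.card_erase_of_mem (Finset.mem_univ _), Finset.card_univ]
  -- more than one multiple, unless the centre acts freely
  have hone : A ≠ ⊥ → 2 ≤ J.card := by
    intro hA0
    by_contra h
    have hall : ∀ l : F, ∀ c ∈ A, l ^ 2 * c ∈ A := by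
      intro l c hc
      by_cases hl : l = 0
      · rw [hl, zero_pow two_ne_zero, zero_mul]; exact zero_mem A
      have he : (Finset.univ.filter fun c => c / l ^ 2 ∈ A) = Finset.univ.filter fun c => c / (1 : F) ^ 2 ∈ A :=
        Finset.card_le_one.mp (by omega) _ (hmemJ l hl) _ (hmemJ 1 one_ne_zero)
      have := (Finset.ext_iff.mp he (l ^ 2 * c)).mp (Finset.mem_filter.mpr ⟨Finset.mem_univ _, by
        rwa [mul_div_cancel_left₀ _ (pow_ne_zero 2 hl)]⟩)
      simpa using (Finset.mem_filter.mp this).2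
    exact (eq_bot_or_top_of_sq hall).elim hA0 hA
  have hzero : (2 : F) = 0 → A = ⊥ := by
    intro h2
    by_contra hA0
    have h3 : 3 ≤ J.card := by
      by_contra h
      have h2' := hone hA0
      -- with two multiples the fourth powers fix each
      have hfour : ∀ l : F, ∀ c ∈ A, l ^ 4 * c ∈ A := by
        intro l c hc
        by_cases hl : l = 0
        · rw [hl, zero_pow (by norm_num), zero_mul]; exact zero_mem A
        by_cases hstab : ∀ c ∈ A, l ^ 2 * c ∈ A
        · rw [show l ^ 4 * c = l ^ 2 * (l ^ 2 * c) by ring]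
          exact hstab _ (hstab c hc)
        push Not at hstab
        obtain ⟨c₁, hc₁, hc₁'⟩ := hstab
        set j1 := Finset.univ.filter fun c => c / (1 : F) ^ 2 ∈ A with hj1
        set j2 := Finset.univ.filter fun c => c / l ^ 2 ∈ A with hj2
        set j4 := Finset.univ.filter fun c => c / (l ^ 2) ^ 2 ∈ A with hj4
        have hne12 : j1 ≠ j2 := fun e => hc₁' (by
          have := (Finset.ext_iff.mp e (l ^ 2 * c₁)).mpr (Finset.mem_filter.mpr ⟨Finset.mem_univ _, by
            rwa [mul_div_cancel_left₀ _ (pow_ne_zero 2 hl)]⟩)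
          simpa [hj1] using this)
        have hne42 : j4 ≠ j2 := fun e => hc₁' (by
          have := (Finset.ext_iff.mp e ((l ^ 2) ^ 2 * c₁)).mp (Finset.mem_filter.mpr ⟨Finset.mem_univ _, by
            rwa [mul_div_cancel_left₀ _ (pow_ne_zero 2 (pow_ne_zero 2 hl))]⟩)
          have h' := (Finset.mem_filter.mp this).2
          rwa [sq (l ^ 2), mul_assoc, mul_div_cancel_left₀ _ (pow_ne_zero 2 hl)] at h')
        have h14 : j4 = j1 := by
          by_contra hne
          have : ({j1, j2, j4} : Finset (Finset F)).card ≤ J.card := Finset.card_le_card (by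
            intro x hx
            simp only [Finset.mem_insert, Finset.mem_singleton] at hx
            rcases hx with rfl | rfl | rfl
            · exact hmemJ 1 one_ne_zero
            · exact hmemJ l hl
            · exact hmemJ _ (pow_ne_zero 2 hl))
          rw [Finset.card_insert_of_notMem (by simp [hne12, Ne.symm hne]), Finset.card_pair (Ne.symm hne42)]
            at this
          omega
        have := (Finset.ext_iff.mp h14 ((l ^ 2) ^ 2 * c)).mp (Finset.mem_filter.mpr ⟨Finset.mem_univ _, by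
          rwa [mul_div_cancel_left₀ _ (pow_ne_zero 2 (pow_ne_zero 2 hl))]⟩)
        rw [show l ^ 4 * c = (l ^ 2) ^ 2 * c by ring]
        simpa [hj1] using this
      refine (eq_bot_or_top_of_sq fun l c hc => ?_).elim hA0 hA
      obtain ⟨r, rfl⟩ := exists_sq h2 l
      rw [show (r ^ 2) ^ 2 * c = r ^ 4 * c by ring]
      exact hfour r c hc
    have hb := hbound {y} (fun z hz => by rw [Finset.mem_singleton.mp hz]; exact ⟨haD, rfl⟩)
      (fun z hz z' hz' _ => by rw [Finset.mem_singleton.mp hz, Finset.mem_singleton.mp hz'])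
    have hc := hcover hA0
    have himg : ((Finset.univ.filter (· ≠ (0 : F))).image fun l => l ^ 2) = Finset.univ.filter (· ≠ (0 : F)) := by
      ext x
      simp only [Finset.mem_image, Finset.mem_filter, Finset.mem_univ, true_and]
      constructor
      · rintro ⟨l, hl, rfl⟩; exact pow_ne_zero 2 hl
      · intro hx
        obtain ⟨l, rfl⟩ := exists_sq h2 x
        exact ⟨l, fun h => hx (by rw [h, zero_pow two_ne_zero]), rfl⟩
    rw [himg, hnz, Nat.mul_sub, mul_one] at hc
    rw [Finset.card_singleton, mul_one] at hb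
    have : J.card ≤ J.card * e := Nat.le_mul_of_pos_right _ (by omega)
    omega
  refine ⟨hzero, fun z hz hzA => by_contra fun hno => ?_⟩
  have hne : y ≠ z := fun h => hno (h ▸ inOrb_self v y)
  have hb := hbound {y, z}
    (fun w hw => by
      rcases Finset.mem_insert.mp hw with rfl | hw
      · exact ⟨haD, rfl⟩
      · rw [Finset.mem_singleton.mp hw]; exact ⟨hz, hzA⟩)
    (fun w hw w' hw' h => by
      rw [Finset.mem_insert, Finset.mem_singleton] at hw hw'
      rcases hw with e1 | e1 <;> rcases hw' with e2 | e2 <;> rw [e1, e2] at h ⊢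
      · exact absurd h hno
      · exact absurd (inOrb_symm h) hno)
  rw [Finset.card_pair hne] at hb
  by_cases hA0 : A = ⊥
  · have : e = q := by
      have h := card_annF A
      rw [← he, hA0, AddSubgroup.card_bot, mul_one] at h
      exact h
    rw [this] at hb
    have : 1 * 2 * q ≤ J.card * 2 * q := Nat.mul_le_mul_right _ (Nat.mul_le_mul_right _ hJpos)
    omega
  · have h2 := hone hA0
    have hc := hcover hA0
    have hfib : (Finset.univ.filter (· ≠ (0 : F))).card ≤
        2 * ((Finset.univ.filter (· ≠ (0 : F))).image fun l => l ^ 2).card := by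
      refine Finset.card_le_mul_card_image _ 2 fun x hx => ?_
      obtain ⟨r, -, rfl⟩ := Finset.mem_image.mp hx
      refine le_trans (Finset.card_le_card (t := ({r, -r} : Finset F)) fun l hl => ?_) Finset.card_le_two
      have := (Finset.mem_filter.mp hl).2
      simpa [sq_eq_sq_iff_eq_or_eq_neg] using this
    rw [hnz] at hfib
    rw [Nat.mul_sub, mul_one] at hc
    have h4 : J.card * 2 * e = 2 * (J.card * e) := by ring
    have : J.card ≤ J.card * e := Nat.le_mul_of_pos_right _ (by omega)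
    omega

end CfsgLib.MinIndexSp
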