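import Cfsg.Agent.MinIndexSp.Rigid
import Cfsg.Agent.SpGeom.Simple

/-!
The annihilator of a rigid point is not inside a plane through `v`.
-/

set_option autoImplicit false
set_option linter.style.haveILetI false
set_option linter.unusedSectionVars false

namespace CfsgLib.MinIndexSp

open Matrix CfsgLib.SpGeom
open CfsgLib.MinIndexSpTwo (orth mem_orth card_orth card_sub exists_sep mem_of_orth)

variable {F : Type*} [Field F] [Fintype F] {m : ℕ}

local notation "V" => (Fin m ⊕ Fin m → F)
local notation "Sp" => Matrix.symplecticGroup (Fin m) F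
local notation "f" => Cfsg.sympForm m F
local notation "mat" A:max => ((A : Sp) : Matrix (Fin m ⊕ Fin m) (Fin m ⊕ Fin m) F)

variable {Ω : Type*} [MulAction ↥(Matrix.symplecticGroup (Fin m) F) Ω] [Fintype Ω]
  [MulAction.IsPretransitive ↥(Matrix.symplecticGroup (Fin m) F) Ω] [Nontrivial Ω]
  (hm : 2 ≤ m) (hq : 3 ≤ Fintype.card F)
  (hlt : Fintype.card Ω * (Fintype.card F - 1) < Fintype.card F ^ (2 * m) - 1)

include hm hq hlt

open Classical in
/-- Counting excludes a proper part of the plane when the centre acts freely. -/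
theorem plane_subset_Dv (hm2 : m = 2) {v a : V} (hv : v ≠ 0) (ha' : a ∉ Submodule.span F {v}) {y : Ω}
    (haD : a ∈ Dv v y) (hD : ∀ x ∈ Dv v y, x ∈ Submodule.span F {v, a}) (hA0 : Ac v y = ⊥) :
    ∀ x ∈ Submodule.span F {v, a}, x ∈ Dv v y := by
  by_contra hne
  push Not at hne
  obtain ⟨x₀, hx₀L, hx₀D⟩ := hne
  have ha := perp_of_mem_Dv haD
  set q := Fintype.card F with hqdef
  set L := Submodule.span F {v, a} with hL
  have hLcard : Nat.card L = q ^ 2 := by
    rw [card_sub L, hL, ← Matrix.range_cons_cons_empty, finrank_span_eq_card (li_two hv ha'),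
      Fintype.card_fin]
  let D' : AddSubgroup L := (Dv v y).comap L.toAddSubgroup.subtype
  have hDcard : Nat.card D' = Nat.card (Dv v y) :=
    Nat.card_congr
      { toFun := fun x => ⟨x.1.1, x.2⟩
        invFun := fun x => ⟨⟨x.1, hD _ x.2⟩, x.2⟩
        left_inv := fun x => rfl
        right_inv := fun x => rfl }
  set d := Nat.card (Dv v y) with hd
  have hdvd : d ∣ q ^ 2 := hDcard ▸ hLcard ▸ AddSubgroup.card_addSubgroup_dvd_card D'
  have hdlt : d ≠ q ^ 2 := fun h => hx₀D (by
    have : D' = ⊤ := AddSubgroup.eq_top_of_card_eq _ (by rw [hDcard, h]; exact hLcard.symm)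
    exact (this ▸ AddSubgroup.mem_top (⟨x₀, hx₀L⟩ : L) : (⟨x₀, hx₀L⟩ : L) ∈ D'))
  have h2d : 2 * d ≤ q ^ 2 := by
    obtain ⟨k, hk⟩ := hdvd
    rcases k with _ | _ | k
    · simp only [mul_zero] at hk
      exact absurd hk (pow_pos (by omega) 2).ne'
    · exact absurd (by rw [hk]; ring) hdlt
    · rw [hk]; nlinarith
  -- the points of the same size
  let fam : Finset Ω := Finset.univ.filter fun z => Nat.card (Dv v z) = d
  have hS := card_perpOut hv (by omega : 1 ≤ m)
  rw [show 2 * m - 1 = 3 by omega, ← hqdef] at hS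
  have hcount : (perpOut v).card * d ≤ fam.card * (d - q) := by
    have hx : ∀ x ∈ perpOut v, d ≤ (fam.filter fun z => x ∈ Dv v z).card := by
      intro x hx
      obtain ⟨hx0, hx1⟩ := mem_perpOut.mp hx
      obtain ⟨g, hgv, hga⟩ := exists_move_two (li_two hv ha') ha (li_two hv hx1) hx0
      have hgv' : mat g *ᵥ v = (1 : F) • v := by rw [one_smul]; exact hgv
      have hcard : Nat.card (Dv v (g • y)) = d :=
        Nat.card_congr ((Equiv.mk (fun x => mat g⁻¹ *ᵥ x) (fun x => mat g *ᵥ x) (mulVec_inv g)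
          (inv_mulVec g)).subtypeEquiv (fun x => by
            rw [mem_Dv_smul one_ne_zero hgv', one_smul]; rfl))
      have hxD : x ∈ Dv v (g • y) := by
        rw [mem_Dv_smul one_ne_zero hgv', one_smul, ← hga, inv_mulVec]; exact haD
      have hAg : Ac v (g • y) = ⊥ := by
        ext c
        rw [mem_Ac_smul one_ne_zero hgv', one_pow, div_one, hA0]
      have hle := Dv_le_orb hv (g • y)
      rw [hAg, AddSubgroup.card_bot, mul_one, hcard] at hle
      refine hle.trans (Finset.card_le_card fun z hz => ?_)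
      have e := Dv_orb (mem_orbF.mp hz)
      exact Finset.mem_filter.mpr ⟨Finset.mem_filter.mpr ⟨Finset.mem_univ _, by rw [e, hcard]⟩,
        by rw [e]; exact hxD⟩
    have h1 := Finset.card_nsmul_le_sum (perpOut v) (fun x => (fam.filter fun z => x ∈ Dv v z).card) d hx
    rw [smul_eq_mul] at h1
    refine h1.trans (le_of_eq ?_)
    simp only [Finset.card_filter]
    rw [Finset.sum_comm, ← smul_eq_mul, ← Finset.sum_const]
    refine Finset.sum_congr rfl fun z hz => ?_
    rw [← Finset.card_filter]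
    have := card_perpOut_Dv hv z
    rw [(Finset.mem_filter.mp hz).2, ← hqdef] at this
    omega
  have hdq : q < d := by
    by_contra h
    rw [Nat.sub_eq_zero_of_le (le_of_not_gt h), mul_zero] at hcount
    have hd0 : 0 < d := Nat.card_pos
    have hq2 : q < q ^ 3 := lt_self_pow₀ (by omega) (by omega)
    have : 0 < (perpOut v).card * d := Nat.mul_pos (by omega) hd0
    omega
  set T := ∑ z : Ω, (q : ℚ) / Nat.card (Dv v z) with hT
  have hfam : (q : ℚ) * fam.card / d ≤ T := by
    rw [show (q : ℚ) * fam.card / d = ∑ z ∈ fam, (q : ℚ) / Nat.card (Dv v z) by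
      rw [Finset.sum_congr rfl fun z hz => by rw [(Finset.mem_filter.mp hz).2], Finset.sum_const, nsmul_eq_mul]
      ring]
    exact Finset.sum_le_sum_of_subset_of_nonneg (Finset.subset_univ _) fun z _ _ => by positivity
  have hw : (q : ℚ) ≤ wt (Ω := Ω) v a := by
    have h := le_wt (Ω := Ω) hv ({y} : Finset Ω) id
      (fun i hi j hj _ => by rw [Finset.mem_singleton.mp hi, Finset.mem_singleton.mp hj])
      (fun i hi => by rw [Finset.mem_singleton.mp hi]; exact haD) (e := q)
      (fun i hi => by rw [Finset.mem_singleton.mp hi, id_eq, hA0, AddSubgroup.card_bot, mul_one])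
    simpa using h
  obtain ⟨-, heq⟩ := wt_le_card (Ω := Ω) hv hm ha ha'
  rw [← hT, show 2 * m - 2 = 2 by omega] at heq
  have hSq : ((perpOut v).card : ℚ) = (q : ℚ) * ((q : ℚ) ^ 2 - 1) := by
    have h := congrArg (Nat.cast : ℕ → ℚ) hS
    push_cast at h
    linear_combination h
  have hc : ((perpOut v).card : ℚ) * d ≤ fam.card * ((d : ℚ) - q) := by
    rw [← Nat.cast_sub hdq.le]
    exact_mod_cast hcount
  have hdpos : (0 : ℚ) < d := by exact_mod_cast (by omega : 0 < d)
  have hq0 : (3 : ℚ) ≤ q := by exact_mod_cast hq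
  rw [hSq] at hc
  rw [div_le_iff₀ hdpos] at hfam
  have h2d' : 2 * (d : ℚ) ≤ (q : ℚ) ^ 2 := by exact_mod_cast h2d
  have hdq' : (q : ℚ) < d := by exact_mod_cast hdq
  have hT2 : 2 * ((q : ℚ) ^ 2 - 1) ≤ T := by
    by_contra hT'
    push Not at hT'
    have h1 : (q : ℚ) * ((q : ℚ) * ((q : ℚ) ^ 2 - 1) * d) ≤ (T * d) * ((d : ℚ) - q) := by
      calc _ ≤ (q : ℚ) * (fam.card * ((d : ℚ) - q)) := mul_le_mul_of_nonneg_left hc (by linarith)
        _ = (q * fam.card) * ((d : ℚ) - q) := by ring
        _ ≤ _ := mul_le_mul_of_nonneg_right hfam (by linarith)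
    have h3 : (q : ℚ) ^ 2 * ((q : ℚ) ^ 2 - 1) ≤ T * ((d : ℚ) - q) := by
      refine le_of_mul_le_mul_right ?_ hdpos
      linarith
    have h4 : T * ((d : ℚ) - q) < 2 * ((q : ℚ) ^ 2 - 1) * ((d : ℚ) - q) :=
      mul_lt_mul_of_pos_right hT' (by linarith)
    nlinarith
  have hN : ((q : ℚ) + 2) * ((q : ℚ) ^ 2 - 1) ≤ Fintype.card Ω := by nlinarith
  have hlt' : (Fintype.card Ω : ℚ) * ((q : ℚ) - 1) < (q : ℚ) ^ 4 - 1 := by
    have h4 : 1 ≤ q ^ 4 := Nat.one_le_pow _ _ (by omega)
    rw [show 2 * m = 4 by omega] at hlt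
    have := (Nat.cast_lt (α := ℚ)).mpr hlt
    rw [Nat.cast_mul, Nat.cast_sub (by omega : 1 ≤ q), Nat.cast_sub h4, Nat.cast_pow] at this
    simpa using this
  nlinarith [mul_le_mul_of_nonneg_right hN (by linarith : (0 : ℚ) ≤ (q : ℚ) - 1),
    mul_nonneg (by linarith : (0 : ℚ) ≤ (q : ℚ) - 3) (by nlinarith : (0 : ℚ) ≤ (q : ℚ) ^ 2 - 1)]

set_option maxHeartbeats 1000000 in
/-- The annihilator is not inside a plane. -/
theorem plane_false (hexc : ¬(m = 2 ∧ Fintype.card F = 3)) {v a : V} (hv : v ≠ 0)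
    (ha' : a ∉ Submodule.span F {v}) {y : Ω} (haD : a ∈ Dv v y)
    (hD : ∀ x ∈ Dv v y, x ∈ Submodule.span F {v, a}) : False := by
  have ha := perp_of_mem_Dv haD
  have hle := orth_le_plane hm hq hlt hv ha' haD hD
  set L := Submodule.span F {v, a} with hL
  have hdim : Module.finrank F L = 2 := by
    rw [hL, ← Matrix.range_cons_cons_empty, finrank_span_eq_card (li_two hv ha'), Fintype.card_fin]
  have hm2 : m = 2 := by
    have h1 := finrank_orth L
    have h2 := Submodule.finrank_mono hle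
    omega
  have heqL : orth L = L := Submodule.eq_of_le_of_finrank_eq hle (by
    have h1 := finrank_orth L
    omega)
  have hq4 : 4 ≤ Fintype.card F := by
    by_contra h
    exact hexc ⟨hm2, by omega⟩
  have hrig := (rigid_of_lt hm hq hlt hv ha' haD).1
  have hmemL : ∀ {x : V}, f x v = 0 → f x a = 0 → x ∈ L := fun h1 h2 =>
    hle (mem_pair_orth.mpr ⟨h1, h2⟩)
  have hLR : ∀ x ∈ L, x ∈ Rb v y := fun x hx => mem_Rb_of_perp_Dv fun d hd =>
    form_pair_eq_zero ha hx (hD d hd)
  -- the annihilator is the whole plane and the projection too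
  have hRL : ∀ u ∈ Rb v y, f u a = 0 → u ∈ L := fun u hu h => hmemL (mem_Rb.mp hu).1 h
  have hboth : (∀ x ∈ L, x ∈ Dv v y) ∧ ∀ u ∈ Rb v y, u ∈ L := by
    by_cases h2 : (2 : F) = 0
    · have hDL := plane_subset_Dv hm hq hlt hm2 hv ha' haD hD (hrig h2)
      refine ⟨hDL, fun u hu => hRL u hu ?_⟩
      rw [form_skew, neg_eq_zero]
      exact eq_zero_of_chi fun t => by
        rw [← form_smul_left]
        exact mem_Dv.mp (hDL _ (L.smul_mem t (Submodule.subset_span (by simp)))) u hu
    · have hRb : ∀ u ∈ Rb v y, u ∈ L := fun u hu => hRL u hu (by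
        by_contra hk
        refine Ac_top_false hm hq hlt hv (y := y) (mul_ne_zero h2 hk) fun t => ?_
        have hta : t • a ∈ Rb v y := hLR _ (L.smul_mem t (Submodule.subset_span (by simp)))
        have := two_form_mem_Ac hu hta
        rw [form_smul_right] at this
        rwa [show t * (2 * f u a) = 2 * (t * f u a) by ring])
      exact ⟨fun x hx => mem_Dv.mpr fun u hu => by
        rw [form_pair_eq_zero ha hx (hRb u hu), AddChar.map_zero_eq_one], hRb⟩
  obtain ⟨hDL, hRb⟩ := hboth
  obtain ⟨μ, hμ0, hμ2⟩ := exists_pow_two_ne (F := F) hq4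
  have hμ1 : μ - 1 ≠ 0 := fun h => hμ2 (by rw [sub_eq_zero.mp h, one_pow])
  -- an element fixing `y` with eigenvalue `μ` on the plane
  obtain ⟨g0, hg0v, hg0a⟩ := exists_move_two (li_two hv ha') ha
    (li_two_smul (l := 1) (k := μ) one_ne_zero hμ0 (li_two hv ha'))
    (by rw [form_smul_left, form_smul_right, ha, mul_zero, mul_zero])
  rw [one_smul] at hg0v
  have hg0inv : mat g0⁻¹ *ᵥ a = μ⁻¹ • a := by
    conv_lhs => rw [show a = μ⁻¹ • (μ • a) by rw [inv_smul_smul₀ hμ0], ← hg0a]
    rw [Matrix.mulVec_smul, inv_mulVec]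
  obtain ⟨u, c, hu, hg1⟩ := exists_fix_of_inOrb (inOrb_of_fix hm hq hlt hv ha' haD hg0v (g := g0)
    (by rw [hg0inv]; exact hDL _ (L.smul_mem _ (Submodule.subset_span (by simp)))))
  set g1 := rho v u c * g0 with hg1def
  have hg1v : mat g1 *ᵥ v = v := by
    rw [hg1def, coe_mul', ← Matrix.mulVec_mulVec, hg0v, rho_mulVec hu, form_self, form_skew u v, hu]
    module
  set η := μ * f a u with hη
  have hg1a : mat g1 *ᵥ a = μ • a + η • v := by
    rw [hg1def, coe_mul', ← Matrix.mulVec_mulVec, hg0a, rho_mulVec hu, form_smul_left, form_smul_left, ha]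
    module
  set a' := a + (η / (μ - 1)) • v with ha'def
  have hg1a' : mat g1 *ᵥ a' = μ • a' := by
    rw [ha'def, Matrix.mulVec_add, Matrix.mulVec_smul, hg1a, hg1v, smul_add, smul_smul, add_assoc, ← add_smul]
    congr 2
    field_simp
    ring
  have ha'L : a' ∈ L := add_mem (Submodule.subset_span (by simp))
    (L.smul_mem _ (Submodule.subset_span (by simp)))
  have ha'v : f a' v = 0 := by rw [ha'def, form_add_left, form_smul_left, ha, form_self, mul_zero, add_zero]
  have hva' : f v a' = 0 := by rw [form_skew, ha'v, neg_zero]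
  have ha'0 : a' ≠ 0 := fun h => ha' (by
    rw [show a = -((η / (μ - 1)) • v) from eq_neg_of_add_eq_zero_left h]
    exact neg_mem (Submodule.smul_mem _ _ (Submodule.mem_span_singleton_self v)))
  have hg1inv : g1⁻¹ • y = y := inv_smul_eq_iff.mpr hg1.symm
  have hfix0 : ∀ s : F, rho v (s • a') 0 • y = y := by
    intro s
    obtain ⟨hta, c', hc'⟩ := hLR _ (L.smul_mem (s / (μ - 1)) ha'L)
    have h1 : rho v (μ • ((s / (μ - 1)) • a')) c' • y = y := by
      have := rho_smul_fix (g := g1) hc'
      rwa [hg1v, Matrix.mulVec_smul, hg1a', smul_comm (s / (μ - 1)) μ a', hg1] at this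
    have hμt : f (μ • ((s / (μ - 1)) • a')) v = 0 := by rw [form_smul_left, hta, mul_zero]
    have h2 : (rho v (μ • ((s / (μ - 1)) • a')) c' * (rho v ((s / (μ - 1)) • a') c')⁻¹) • y = y := by
      rw [mul_smul, inv_smul_eq_iff.mpr hc'.symm, h1]
    rw [rho_inv hta, rho_mul hμt (by rw [form_neg_left, hta, neg_zero]), form_neg_left, form_smul_right,
      form_self, mul_zero, neg_zero, add_zero, add_neg_cancel] at h2
    convert h2 using 3
    rw [smul_smul, ← neg_smul, ← add_smul]
    congr 1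
    field_simp
    ring
  -- every transvection at `a'` fixes `y`
  refine not_fixes hq hm hlt ha'0 y fun γ0 => ?_
  have hμ2' : μ ^ 2 - 1 ≠ 0 := sub_ne_zero.mpr hμ2
  by_cases hγ0 : γ0 = 0
  · rw [hγ0, tv_zero, one_smul]
  set γ := γ0 / (μ ^ 2 - 1) with hγ
  have hγne : γ ≠ 0 := div_ne_zero hγ0 hμ2'
  have hfixL : ∀ x ∈ L, mat (tv a' γ) *ᵥ x = x := fun x hx => tv_fix _ _ (form_pair_eq_zero ha hx ha'L)
  obtain ⟨x, c, hx, hh⟩ := exists_fix_of_inOrb (inOrb_of_fix hm hq hlt hv ha' haD
    (g := tv a' γ) (hfixL v (Submodule.subset_span (by simp)))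
    (by rw [tv_inv, tv_fix _ _ (form_pair_eq_zero ha (Submodule.subset_span (by simp)) ha'L)]; exact haD))
  have hκ : f x a' = 0 := by
    by_cases h2 : (2 : F) = 0
    · have hA0 := hrig h2
      have hgx : mat (tv a' γ) *ᵥ x = x + (γ * f x a') • a' := tv_mulVec _ _ _
      have e : rho v x c * tv a' γ * (rho v x c * tv a' γ) =
          rho v ((γ * f x a') • a') (γ * f x a' * f a' x) := by
        have h1 : tv a' γ * rho v x c = rho v (x + (γ * f x a') • a') c * tv a' γ := by
          rw [← mul_inv_eq_iff_eq_mul, rho_conj, tv_fix _ _ hva', hgx]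
        have hx' : f (x + (γ * f x a') • a') v = 0 := by
          rw [form_add_left, form_smul_left, hx, ha'v, mul_zero, add_zero]
        have h2v : x + x = (0 : V) := by rw [← two_smul F x, h2, zero_smul]
        rw [mul_assoc (rho v x c), ← mul_assoc (tv a' γ), h1, mul_assoc, tv_mul,
          show γ + γ = 0 by rw [← two_mul, h2, zero_mul], tv_zero, mul_one, rho_mul hx hx', ← add_assoc,
          h2v, zero_add, form_add_left, form_self, zero_add, form_smul_left]
        congr 1
        rw [show c + c = 0 by rw [← two_mul, h2, zero_mul], zero_add]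
      have h2' : (rho v x c * tv a' γ * (rho v x c * tv a' γ)) • y = y := by rw [mul_smul, hh, hh]
      rw [e] at h2'
      have := sub_mem_Ac (by rw [form_smul_left, ha'v, mul_zero]) h2' (hfix0 _)
      rw [hA0, AddSubgroup.mem_bot, sub_zero, form_skew x a', mul_neg, neg_eq_zero] at this
      simpa [hγne] using this
    · by_contra hk
      refine Ac_top_false hm hq hlt hv (y := y) (mul_ne_zero h2 hk) fun t => ?_
      have hta : f (t • a') v = 0 := by rw [form_smul_left, ha'v, mul_zero]
      have h1 : rho v (t • a') (0 + 2 * f (t • a') x) • y = y := by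
        have h := rho_smul_fix (g := rho v x c * tv a' γ) (hfix0 t)
        rw [hh, coe_mul', ← Matrix.mulVec_mulVec, ← Matrix.mulVec_mulVec, tv_fix _ _ hva',
          tv_fix _ _ (by rw [form_smul_left, form_self, mul_zero])] at h
        rw [← rho_conj_rho hta hx 0 c]
        rwa [rho_conj]
      have := sub_mem_Ac hta (hfix0 t) h1
      rw [form_smul_left, form_skew x a'] at this
      rwa [show t * (2 * f x a') = 0 - (0 + 2 * (t * -f x a')) by ring]
  have hxa : f x a = 0 := by
    rw [ha'def, form_add_right, form_smul_right, hx, mul_zero, add_zero] at hκ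
    exact hκ
  obtain ⟨α, β, rfl⟩ : ∃ α β, x = β • a' + α • v := by
    obtain ⟨s, t, hst⟩ := Submodule.mem_span_pair.mp (hmemL hx hxa)
    exact ⟨s - t * (η / (μ - 1)), t, by rw [← hst, ha'def]; module⟩
  have hk : (tv v (c + 2 * α) * tv a' γ) • y = y := by
    have e : rho v (β • a' + α • v) c = rho v (β • a') 0 * tv v (c + 2 * α) := by
      rw [← rho_smul_self, rho_mul (by rw [form_smul_left, ha'v, mul_zero])
        (by rw [form_smul_left, form_self, mul_zero]), form_smul_left, form_smul_right, hva', mul_zero,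
        mul_zero, zero_add, add_zero]
    rw [e, mul_assoc, mul_smul] at hh
    exact smul_left_cancel (rho v (β • a') 0) (hh.trans (hfix0 β).symm)
  have hk' : (tv v (c + 2 * α) * tv a' (μ ^ 2 * γ)) • y = y := by
    have e : g1 * (tv v (c + 2 * α) * tv a' γ) * g1⁻¹ = tv v (c + 2 * α) * tv a' (μ ^ 2 * γ) := by
      rw [← conj_mul, tv_conj, tv_conj, hg1v, hg1a', tv_smul]
    rw [← e, mul_smul, mul_smul _ (tv v (c + 2 * α) * tv a' γ), hg1inv, hk, hg1]
  have e : tv v (c + 2 * α) * tv a' (μ ^ 2 * γ) = tv a' γ0 * (tv v (c + 2 * α) * tv a' γ) := by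
    rw [← mul_assoc, show tv a' γ0 * tv v (c + 2 * α) = tv v (c + 2 * α) * tv a' γ0 from
      (CfsgLib.MinIndexSpTwo.tv_commute ha'v _ _).eq, mul_assoc, tv_mul]
    congr 2
    rw [hγ]
    field_simp
    ring
  rw [e, mul_smul, hk] at hk'
  exact hk'

end CfsgLib.MinIndexSp
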