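import Cfsg.Agent.MinIndexSp.Full

/-!
The orbits of the radical of a point stabiliser: data attached to a point, and the weighted count.
-/

set_option autoImplicit false
set_option linter.style.haveILetI false
set_option linter.unusedSectionVars false

namespace CfsgLib.MinIndexSp

open Matrix CfsgLib.SpGeom
open CfsgLib.MinIndexSpTwo (orth mem_orth card_orth card_sub exists_sep)

variable {F : Type*} [Field F] [Fintype F] {m : ℕ}

local notation "V" => (Fin m ⊕ Fin m → F)
local notation "Sp" => Matrix.symplecticGroup (Fin m) F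
local notation "f" => Cfsg.sympForm m F
local notation "mat" A:max => ((A : Sp) : Matrix (Fin m ⊕ Fin m) (Fin m ⊕ Fin m) F)

theorem exists_chi (F : Type*) [Field F] [Fintype F] : ∃ ψ : AddChar F ℂ, ψ 1 ≠ 1 :=
  AddChar.exists_apply_ne_zero.mpr one_ne_zero

/-- A fixed non-trivial character of the field. -/
noncomputable def chi (F : Type*) [Field F] [Fintype F] : AddChar F ℂ := (exists_chi F).choose

theorem chi_one : chi F 1 ≠ 1 := (exists_chi F).choose_spec

theorem eq_zero_of_chi {k : F} (h : ∀ t : F, chi F (t * k) = 1) : k = 0 := by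
  by_contra hk
  have := h k⁻¹
  rw [inv_mul_cancel₀ hk] at this
  exact chi_one this

/-- The pairing on vectors. -/
noncomputable def pairV (a : Fin m ⊕ Fin m → F) : AddChar (Fin m ⊕ Fin m → F) ℂ :=
  (chi F).compAddMonoidHom (AddMonoidHom.mk' (fun x => Cfsg.sympForm m F a x) (form_add_right a))

/-- The pairing on scalars. -/
noncomputable def pairF (a : F) : AddChar F ℂ :=
  (chi F).compAddMonoidHom (AddMonoidHom.mk' (fun x => a * x) (mul_add a))

theorem pairV_apply (a x : V) : pairV a x = chi F (f a x) := rfl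

theorem pairF_apply (a x : F) : pairF a x = chi F (a * x) := rfl

theorem pairV_add (a b x : V) : pairV (a + b) x = pairV a x * pairV b x := by
  rw [pairV_apply, pairV_apply, pairV_apply, form_add_left, AddChar.map_add_eq_mul]

theorem pairF_add (a b x : F) : pairF (a + b) x = pairF a x * pairF b x := by
  rw [pairF_apply, pairF_apply, pairF_apply, add_mul, AddChar.map_add_eq_mul]

theorem pairV_nd (s : V) (hs : s ≠ 0) : ∃ a, pairV a s ≠ 1 := by
  by_contra h
  push Not at h
  obtain ⟨d, hd⟩ := exists_form_ne_zero hs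
  refine hd ?_
  rw [form_skew, neg_eq_zero]
  exact eq_zero_of_chi fun t => by rw [← form_smul_left, ← pairV_apply]; exact h _

theorem pairF_nd (s : F) (hs : s ≠ 0) : ∃ a, pairF a s ≠ 1 :=
  ⟨s⁻¹, by rw [pairF_apply, inv_mul_cancel₀ hs]; exact chi_one⟩

theorem pairV_symm (a b : V) (h : pairV a b = 1) : pairV b a = 1 := by
  rw [pairV_apply] at h ⊢
  rw [form_skew, AddChar.map_neg_eq_inv, h, inv_one]

theorem form_neg_left (a x : V) : f (-a) x = -f a x := by
  rw [← neg_one_smul F a, form_smul_left, neg_one_mul]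

variable {Ω : Type*} [MulAction ↥(Matrix.symplecticGroup (Fin m) F) Ω]

/-- The projection of the stabiliser of `y` in the radical at `v`. -/
def Rb (v : Fin m ⊕ Fin m → F) (y : Ω) : AddSubgroup (Fin m ⊕ Fin m → F) where
  carrier := {u | Cfsg.sympForm m F u v = 0 ∧ ∃ c, rho v u c • y = y}
  zero_mem' := ⟨form_zero_left v, 0, by rw [rho_zero, one_smul]⟩
  add_mem' := fun {u u'} ⟨hu, c, hc⟩ ⟨hu', c', hc'⟩ =>
    ⟨by rw [form_add_left, hu, hu', add_zero], _, by rw [← rho_mul hu hu', mul_smul, hc', hc]⟩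
  neg_mem' := fun {u} ⟨hu, c, hc⟩ =>
    ⟨by rw [form_neg_left, hu, neg_zero], -c, by rw [← rho_inv hu, inv_smul_eq_iff, hc]⟩

/-- The stabiliser of `y` in the transvection group at `v`. -/
def Ac (v : Fin m ⊕ Fin m → F) (y : Ω) : AddSubgroup F where
  carrier := {c | tv v c • y = y}
  zero_mem' := by show tv v (0 : F) • y = y; rw [tv_zero, one_smul]
  add_mem' := fun {a b} (ha : tv v a • y = y) (hb : tv v b • y = y) => by
    show tv v (a + b) • y = y
    rw [← tv_mul, mul_smul, hb, ha]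
  neg_mem' := fun {a} (ha : tv v a • y = y) => by
    show tv v (-a) • y = y
    rw [← tv_inv, inv_smul_eq_iff, ha]

/-- The annihilator of the projection. -/
noncomputable def Dv (v : Fin m ⊕ Fin m → F) (y : Ω) : AddSubgroup (Fin m ⊕ Fin m → F) :=
  annih pairV pairV_add (Rb v y)

theorem mem_Rb {v u : V} {y : Ω} : u ∈ Rb v y ↔ f u v = 0 ∧ ∃ c, rho v u c • y = y := Iff.rfl

theorem mem_Ac {v : V} {c : F} {y : Ω} : c ∈ Ac v y ↔ tv v c • y = y := Iff.rfl

theorem mem_Dv {v a : V} {y : Ω} : a ∈ Dv v y ↔ ∀ u ∈ Rb v y, chi F (f a u) = 1 := Iff.rfl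

theorem smul_self_mem_Rb (v : V) (y : Ω) (t : F) : t • v ∈ Rb v y :=
  ⟨by rw [form_smul_left, form_self, mul_zero], -(2 * t), by
    rw [rho_smul_self, neg_add_cancel, tv_zero, one_smul]⟩

theorem perp_of_mem_Dv {v a : V} {y : Ω} (h : a ∈ Dv v y) : f a v = 0 :=
  eq_zero_of_chi fun t => by rw [← form_smul_right]; exact mem_Dv.mp h _ (smul_self_mem_Rb v y t)

theorem smul_self_mem_Dv (v : V) (y : Ω) (t : F) : t • v ∈ Dv v y := mem_Dv.mpr fun u hu => by
  rw [form_smul_left, form_skew, (mem_Rb.mp hu).1, neg_zero, mul_zero, AddChar.map_zero_eq_one]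

theorem annih_Dv (v : V) (y : Ω) : annih pairV pairV_add (Dv v y) = Rb v y :=
  eq_annih_annih pairV_add pairV_nd pairV_symm _

theorem mem_Rb_of_perp_Dv {v u : V} {y : Ω} (h : ∀ d ∈ Dv v y, f u d = 0) : u ∈ Rb v y := by
  rw [← annih_Dv]
  exact fun d hd => by rw [pairV_apply, h d hd, AddChar.map_zero_eq_one]

theorem card_Dv_mul (v : V) (y : Ω) :
    Nat.card (Dv v y) * Nat.card (Rb v y) = Fintype.card F ^ (2 * m) := by
  rw [Dv, card_annih_mul pairV_add pairV_nd, Nat.card_eq_fintype_card, Fintype.card_fun, Fintype.card_sum,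
    Fintype.card_fin, two_mul]

theorem rho_smul_fix {v u : V} {y : Ω} {g : Sp} {c : F} (h : rho v u c • y = y) :
    rho (mat g *ᵥ v) (mat g *ᵥ u) c • (g • y) = g • y := by
  rw [← rho_conj, mul_smul, mul_smul, inv_smul_smul, h]

/-- Transport along an element fixing the line through `v`. -/
theorem mem_Rb_smul {v : V} {g : Sp} {l : F} (hl : l ≠ 0) (hg : mat g *ᵥ v = l • v) {y : Ω} {u : V} :
    u ∈ Rb v (g • y) ↔ mat g⁻¹ *ᵥ (l⁻¹ • u) ∈ Rb v y := by
  have hg' : mat g⁻¹ *ᵥ v = l⁻¹ • v := by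
    conv_lhs => rw [show v = l⁻¹ • (mat g *ᵥ v) by rw [hg, inv_smul_smul₀ hl]]
    rw [Matrix.mulVec_smul, inv_mulVec]
  constructor
  · rintro ⟨hu, c, hc⟩
    have hu' : f (mat g⁻¹ *ᵥ (l⁻¹ • u)) v = 0 := by
      have := form_mulVec g (mat g⁻¹ *ᵥ (l⁻¹ • u)) v
      rw [mulVec_inv, hg, form_smul_left, form_smul_right, hu, mul_zero, mul_zero] at this
      exact this.symm
    refine ⟨hu', c / l ^ 2, ?_⟩
    have h := rho_smul_fix (g := g⁻¹) hc
    have hu'' : f (mat g⁻¹ *ᵥ u) v = 0 := by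
      rw [show u = l • l⁻¹ • u by rw [smul_inv_smul₀ hl], Matrix.mulVec_smul, form_smul_left, hu', mul_zero]
    rw [inv_smul_smul, hg', rho_smul_left hu''] at h
    rw [Matrix.mulVec_smul]
    convert h using 3
    rw [inv_pow, div_eq_mul_inv, mul_comm]
  · rintro ⟨hu, c, hc⟩
    have hu' : f u v = 0 := by
      have := form_mulVec g (mat g⁻¹ *ᵥ (l⁻¹ • u)) v
      rw [mulVec_inv, hg, hu, form_smul_left, form_smul_right, ← mul_assoc, inv_mul_cancel₀ hl, one_mul] at this
      exact this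
    refine ⟨hu', l ^ 2 * c, ?_⟩
    have h := rho_smul_fix (g := g) hc
    rw [mulVec_inv, hg, rho_smul_left (by rw [form_smul_left, hu', mul_zero]), smul_inv_smul₀ hl] at h
    exact h

theorem mem_Dv_smul {v : V} {g : Sp} {l : F} (hl : l ≠ 0) (hg : mat g *ᵥ v = l • v) {y : Ω} {a : V} :
    a ∈ Dv v (g • y) ↔ mat g⁻¹ *ᵥ (l • a) ∈ Dv v y := by
  rw [mem_Dv, mem_Dv]
  constructor
  · intro h u hu
    have hu' : l • (mat g *ᵥ u) ∈ Rb v (g • y) := by
      rw [mem_Rb_smul hl hg, inv_smul_smul₀ hl, inv_mulVec]; exact hu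
    have := h _ hu'
    rwa [form_smul_right, ← form_smul_left, form_inv] at this
  · intro h u hu
    have := h _ ((mem_Rb_smul hl hg).mp hu)
    rwa [form_mulVec, form_smul_left, form_smul_right, ← mul_assoc, mul_inv_cancel₀ hl, one_mul] at this

theorem mem_Ac_smul {v : V} {g : Sp} {l : F} (hl : l ≠ 0) (hg : mat g *ᵥ v = l • v) {y : Ω} {c : F} :
    c ∈ Ac v (g • y) ↔ c / l ^ 2 ∈ Ac v y := by
  have e : tv v c = g * tv v (c / l ^ 2) * g⁻¹ := by
    rw [tv_conj, hg, tv_smul, mul_div_cancel₀ _ (pow_ne_zero 2 hl)]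
  rw [mem_Ac, mem_Ac, e, mul_smul, mul_smul, inv_smul_smul]
  exact ⟨fun h => smul_left_cancel g h, fun h => by rw [h]⟩

/-- The orbit of the radical. -/
def InOrb (v : Fin m ⊕ Fin m → F) (y z : Ω) : Prop := ∃ u c, Cfsg.sympForm m F u v = 0 ∧ rho v u c • y = z

theorem inOrb_self (v : V) (y : Ω) : InOrb v y y := ⟨0, 0, form_zero_left v, by rw [rho_zero, one_smul]⟩

theorem inOrb_symm {v : V} {y z : Ω} (h : InOrb v y z) : InOrb v z y := by
  obtain ⟨u, c, hu, rfl⟩ := h
  exact ⟨-u, -c, by rw [form_neg_left, hu, neg_zero], by rw [← rho_inv hu, inv_smul_smul]⟩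

theorem inOrb_trans {v : V} {x y z : Ω} (h : InOrb v x y) (h' : InOrb v y z) : InOrb v x z := by
  obtain ⟨u, c, hu, rfl⟩ := h
  obtain ⟨u', c', hu', rfl⟩ := h'
  exact ⟨u' + u, _, by rw [form_add_left, hu, hu', add_zero], by rw [← rho_mul hu' hu, mul_smul]⟩

theorem Rb_orb {v : V} {y z : Ω} (h : InOrb v y z) : Rb v z = Rb v y := by
  obtain ⟨w, d, hw, rfl⟩ := h
  ext u
  constructor
  · rintro ⟨hu, c, hc⟩
    refine ⟨hu, c - 2 * f u w, ?_⟩
    have e := rho_conj_rho hu hw (c - 2 * f u w) d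
    rw [sub_add_cancel] at e
    rw [← e, mul_smul, mul_smul, inv_smul_smul] at hc
    exact smul_left_cancel _ hc
  · rintro ⟨hu, c, hc⟩
    exact ⟨hu, c + 2 * f u w, by rw [← rho_conj_rho hu hw c d, mul_smul, mul_smul, inv_smul_smul, hc]⟩

theorem Dv_orb {v : V} {y z : Ω} (h : InOrb v y z) : Dv v z = Dv v y := by
  rw [Dv, Dv, Rb_orb h]

theorem Ac_orb {v : V} {y z : Ω} (h : InOrb v y z) : Ac v z = Ac v y := by
  obtain ⟨w, d, hw, rfl⟩ := h
  ext c
  rw [mem_Ac, mem_Ac, ← mul_smul, ← rho_comm hw, mul_smul]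
  exact ⟨fun h => smul_left_cancel _ h, fun h => by rw [h]⟩

theorem inOrb_smul {v : V} {g : Sp} {l : F} (hl : l ≠ 0) (hg : mat g *ᵥ v = l • v) {y z : Ω}
    (h : InOrb v y z) : InOrb v (g • y) (g • z) := by
  obtain ⟨u, c, hu, rfl⟩ := h
  have hgu : f (mat g *ᵥ u) v = 0 := by
    have := form_mulVec g u v
    rw [hg, form_smul_right, hu] at this
    exact (mul_eq_zero.mp this).resolve_left hl
  refine ⟨l • (mat g *ᵥ u), l ^ 2 * c, by rw [form_smul_left, hgu, mul_zero], ?_⟩
  rw [← rho_smul_left hgu, ← hg, ← rho_conj, mul_smul, mul_smul, inv_smul_smul]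

theorem card_perp (v : V) (hv : v ≠ 0) :
    Nat.card {u : V // f u v = 0} * Fintype.card F = Fintype.card F ^ (2 * m) := by
  have hne : dualOf v ≠ 0 := fun h => by
    obtain ⟨d, hd⟩ := exists_form_ne_zero hv
    refine hd ?_
    rw [form_skew, neg_eq_zero]
    exact LinearMap.congr_fun h d
  have h := card_linear_fibre (dualOf v) hne 0
  rw [Nat.card_eq_fintype_card (α := V), Fintype.card_fun, Fintype.card_sum, Fintype.card_fin, ← two_mul] at h
  exact h

/-- The vectors perpendicular to `v` outside its line. -/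
noncomputable def perpOut (v : Fin m ⊕ Fin m → F) : Finset (Fin m ⊕ Fin m → F) := by
  classical exact Finset.univ.filter fun x => Cfsg.sympForm m F x v = 0 ∧ x ∉ Submodule.span F {v}

theorem mem_perpOut {v x : V} : x ∈ perpOut v ↔ f x v = 0 ∧ x ∉ Submodule.span F {v} := by
  simp [perpOut]

theorem card_perpOut {v : V} (hv : v ≠ 0) (hm : 1 ≤ m) :
    (perpOut v).card + Fintype.card F = Fintype.card F ^ (2 * m - 1) := by
  classical
  let L : Finset V := Finset.univ.filter fun x => x ∈ Submodule.span F {v}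
  let P : Finset V := Finset.univ.filter fun x => f x v = 0
  have hLP : L ⊆ P := fun x hx => by
    obtain ⟨c, rfl⟩ := Submodule.mem_span_singleton.mp (Finset.mem_filter.mp hx).2
    exact Finset.mem_filter.mpr ⟨Finset.mem_univ _, by rw [form_smul_left, form_self, mul_zero]⟩
  have hL : L.card = Fintype.card F := by
    have h := card_sub (Submodule.span F {v})
    rw [finrank_span_singleton hv, pow_one, Nat.card_eq_fintype_card, Fintype.card_subtype] at h
    exact h
  have hPc : P.card = Fintype.card F ^ (2 * m - 1) := by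
    have h := card_perp v hv
    rw [Nat.card_eq_fintype_card, Fintype.card_subtype, show 2 * m = 2 * m - 1 + 1 by omega, pow_succ] at h
    exact Nat.eq_of_mul_eq_mul_right Fintype.card_pos h
  have hS : perpOut v = P \ L := by ext x; simp [mem_perpOut, P, L]
  rw [hS, ← hPc, ← hL, Finset.card_sdiff_add_card_eq_card hLP]

theorem card_perpOut_Dv {v : V} (hv : v ≠ 0) (y : Ω) [DecidablePred (· ∈ Dv v y)] :
    ((perpOut v).filter (· ∈ Dv v y)).card + Fintype.card F = Nat.card (Dv v y) := by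
  classical
  let L : Finset V := Finset.univ.filter fun x => x ∈ Submodule.span F {v}
  let D : Finset V := Finset.univ.filter fun x => x ∈ Dv v y
  have hL : L.card = Fintype.card F := by
    have h := card_sub (Submodule.span F {v})
    rw [finrank_span_singleton hv, pow_one, Nat.card_eq_fintype_card, Fintype.card_subtype] at h
    exact h
  have hD : D.card = Nat.card (Dv v y) := by rw [Nat.card_eq_fintype_card, Fintype.card_subtype]
  have hLD : L ⊆ D := fun x hx => by
    obtain ⟨c, rfl⟩ := Submodule.mem_span_singleton.mp (Finset.mem_filter.mp hx).2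
    exact Finset.mem_filter.mpr ⟨Finset.mem_univ _, smul_self_mem_Dv v y c⟩
  have hS : (perpOut v).filter (· ∈ Dv v y) = D \ L := by
    ext x
    simp only [Finset.mem_filter, mem_perpOut, Finset.mem_sdiff, D, L, Finset.mem_univ, true_and]
    exact ⟨fun h => ⟨h.2, h.1.2⟩, fun h => ⟨⟨perp_of_mem_Dv h.1, h.2⟩, h.1⟩⟩
  rw [hS, ← hL, ← hD, Finset.card_sdiff_add_card_eq_card hLD]

section Count

variable [Fintype Ω]

/-- The orbit as a finite set. -/
noncomputable def orbF (v : Fin m ⊕ Fin m → F) (y : Ω) : Finset Ω :=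
  (Set.toFinite {z | InOrb v y z}).toFinset

theorem mem_orbF {v : V} {y z : Ω} : z ∈ orbF v y ↔ InOrb v y z := by simp [orbF]

theorem Dv_le_orb {v : V} (hv : v ≠ 0) (y : Ω) :
    Nat.card (Dv v y) ≤ (orbF v y).card * Nat.card (Ac v y) := by
  classical
  let P : Finset (V × F) := Finset.univ.filter fun p => f p.1 v = 0
  have hP : P.card = Fintype.card F ^ (2 * m) := by
    rw [← card_perp v hv, ← Nat.card_eq_fintype_card (α := F), ← Nat.card_prod, ← Fintype.card_coe,
      ← Nat.card_eq_fintype_card]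
    exact Nat.card_congr
      { toFun := fun p => (⟨p.1.1, (Finset.mem_filter.mp p.2).2⟩, p.1.2)
        invFun := fun p => ⟨(p.1.1, p.2), Finset.mem_filter.mpr ⟨Finset.mem_univ _, p.1.2⟩⟩
        left_inv := fun p => rfl
        right_inv := fun p => rfl }
  have hfib : ∀ z ∈ orbF v y, (P.filter fun p => rho v p.1 p.2 • y = z).card ≤
      Nat.card (Rb v y) * Nat.card (Ac v y) := by
    intro z hz
    obtain ⟨u₀, c₀, hu₀, rfl⟩ := mem_orbF.mp hz
    have hker : ∀ p : V × F, f p.1 v = 0 → rho v p.1 p.2 • y = rho v u₀ c₀ • y →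
        rho v (-u₀ + p.1) (-c₀ + p.2 + f p.1 (-u₀)) • y = y := fun p hp h => by
      rw [← rho_mul (by rw [form_neg_left, hu₀, neg_zero]) hp, mul_smul, h, ← rho_inv hu₀, inv_smul_smul]
    let G0 : Finset V := Finset.univ.filter fun u => -u₀ + u ∈ Rb v y
    have hG0 : G0.card = Nat.card (Rb v y) := by
      rw [← Fintype.card_coe, ← Nat.card_eq_fintype_card]
      exact Nat.card_congr ((Equiv.addLeft (-u₀)).subtypeEquiv fun u => by simp [G0])
    have h1 := @Finset.card_le_mul_card_image_of_maps_to _ _ _ Prod.fst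
      (P.filter fun p => rho v p.1 p.2 • y = rho v u₀ c₀ • y) G0 (fun p hp => ?_) (Nat.card (Ac v y)) (fun u hu => ?_)
    · rw [hG0, mul_comm] at h1; exact h1
    · obtain ⟨hpP, hpe⟩ := Finset.mem_filter.mp hp
      have hp' := (Finset.mem_filter.mp hpP).2
      exact Finset.mem_filter.mpr ⟨Finset.mem_univ _,
        ⟨by rw [form_add_left, form_neg_left, hu₀, hp', neg_zero, add_zero], _, hker p hp' hpe⟩⟩
    · by_cases hne : ((P.filter fun p => rho v p.1 p.2 • y = rho v u₀ c₀ • y).filter fun p => p.1 = u).Nonempty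
      swap
      · rw [Finset.not_nonempty_iff_eq_empty.mp hne, Finset.card_empty]; exact Nat.zero_le _
      obtain ⟨p₁, hp₁⟩ := hne
      obtain ⟨hp₁', rfl⟩ := Finset.mem_filter.mp hp₁
      obtain ⟨hp₁P, hp₁e⟩ := Finset.mem_filter.mp hp₁'
      let A0 : Finset F := Finset.univ.filter fun c => c ∈ Ac v y
      have hA0 : A0.card = Nat.card (Ac v y) := by
        rw [← Fintype.card_coe, ← Nat.card_eq_fintype_card]
        exact Nat.card_congr (Equiv.subtypeEquivRight fun c => by simp [A0])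
      rw [← hA0]
      refine Finset.card_le_card_of_injOn (fun p => p.2 - p₁.2) ?_ ?_
      · intro p hp
        obtain ⟨hp', hpu⟩ := Finset.mem_filter.mp hp
        obtain ⟨hpP, hpe⟩ := Finset.mem_filter.mp hp'
        refine Finset.mem_filter.mpr ⟨Finset.mem_univ _, mem_Ac.mpr (smul_left_cancel (rho v p₁.1 p₁.2) ?_)⟩
        rw [← mul_smul, hp₁e, ← hpe, hpu, tv_eq_rho, rho_mul (Finset.mem_filter.mp hp₁P).2 (form_zero_left v),
          form_zero_left, add_zero, add_zero, add_sub_cancel]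
      · intro p hp p' hp' h
        have h' : p.2 - p₁.2 = p'.2 - p₁.2 := h
        exact Prod.ext ((Finset.mem_filter.mp hp).2.trans (Finset.mem_filter.mp hp').2.symm) (sub_left_inj.mp h')
  have h2 := @Finset.card_le_mul_card_image_of_maps_to _ _ _ (fun p : V × F => rho v p.1 p.2 • y) P (orbF v y)
    (fun p hp => mem_orbF.mpr ⟨p.1, p.2, (Finset.mem_filter.mp hp).2, rfl⟩)
    (Nat.card (Rb v y) * Nat.card (Ac v y)) hfib
  rw [hP, ← card_Dv_mul v y] at h2
  refine Nat.le_of_mul_le_mul_right (c := Nat.card (Rb v y)) ?_ (Nat.card_pos (α := ↥(Rb v y)))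
  exact h2.trans_eq (by ring)

/-- The weighted number of radical orbits whose annihilator contains `a`. -/
noncomputable def wt (v : Fin m ⊕ Fin m → F) (a : Fin m ⊕ Fin m → F) : ℚ := by
  classical exact ∑ y : Ω, if a ∈ Dv v y then (Fintype.card F : ℚ) / Nat.card (Dv v y) else 0

theorem wt_eq [DecidableEq Ω] {v a : V} :
    wt (Ω := Ω) v a = ∑ y ∈ (Set.toFinite {y : Ω | a ∈ Dv v y}).toFinset,
      (Fintype.card F : ℚ) / Nat.card (Dv v y) := by
  classical
  rw [wt, ← Finset.sum_filter]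
  exact Finset.sum_congr (by ext; simp) fun _ _ => rfl

theorem wt_const [MulAction.IsPretransitive ↥(Matrix.symplecticGroup (Fin m) F) Ω] {v a b : V} (hv : v ≠ 0)
    (ha : f a v = 0) (ha' : a ∉ Submodule.span F {v}) (hb : f b v = 0) (hb' : b ∉ Submodule.span F {v}) :
    wt (Ω := Ω) v a = wt (Ω := Ω) v b := by
  classical
  obtain ⟨g, hgv, hga⟩ := exists_move_two (li_two hv ha') ha (li_two hv hb') hb
  have hgv' : mat g *ᵥ v = (1 : F) • v := by rw [one_smul]; exact hgv
  have hD : ∀ (x : V) (y : Ω), x ∈ Dv v (g • y) ↔ mat g⁻¹ *ᵥ x ∈ Dv v y := fun x y => by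
    rw [mem_Dv_smul one_ne_zero hgv', one_smul]
  have hcard : ∀ y : Ω, Nat.card (Dv v (g • y)) = Nat.card (Dv v y) := fun y => by
    refine Nat.card_congr ((Equiv.mk (fun x => mat g⁻¹ *ᵥ x) (fun x => mat g *ᵥ x) (mulVec_inv g)
      (inv_mulVec g)).subtypeEquiv (fun x => hD x y))
  rw [wt, wt]
  refine Fintype.sum_equiv (MulAction.toPerm g) _ _ fun y => ?_
  simp only [MulAction.toPerm_apply]
  rw [hcard, hD, ← hga, inv_mulVec]

theorem wt_le_card {v a : V} (hv : v ≠ 0) (hm : 2 ≤ m)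
    [MulAction.IsPretransitive ↥(Matrix.symplecticGroup (Fin m) F) Ω]
    (ha : f a v = 0) (ha' : a ∉ Submodule.span F {v}) :
    wt (Ω := Ω) v a * (Fintype.card F : ℚ) ^ (2 * m - 2) ≤ Fintype.card Ω ∧
    ((Fintype.card F : ℚ) ^ (2 * m - 2) - 1) * wt (Ω := Ω) v a +
      ∑ y : Ω, (Fintype.card F : ℚ) / Nat.card (Dv v y) = Fintype.card Ω := by
  classical
  set q := Fintype.card F with hq
  let S : Finset V := perpOut v
  have hS : (S.card : ℚ) = (q : ℚ) * ((q : ℚ) ^ (2 * m - 2) - 1) := by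
    have h := congrArg (Nat.cast : ℕ → ℚ) (card_perpOut hv (by omega : 1 ≤ m))
    rw [Nat.cast_add, Nat.cast_pow, show 2 * m - 1 = 2 * m - 2 + 1 by omega, pow_succ] at h
    linear_combination h
  have hsum : ∑ x ∈ S, wt (Ω := Ω) v x = (q : ℚ) * Fintype.card Ω -
      q * ∑ y : Ω, (q : ℚ) / Nat.card (Dv v y) := by
    simp only [wt]
    rw [Finset.sum_comm]
    have : ∀ y : Ω, ∑ x ∈ S, (if x ∈ Dv v y then (q : ℚ) / Nat.card (Dv v y) else 0) =
        q - q * ((q : ℚ) / Nat.card (Dv v y)) := by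
      intro y
      rw [← Finset.sum_filter, Finset.sum_const, nsmul_eq_mul]
      have hc := card_perpOut_Dv hv y
      have hpos : (Nat.card (Dv v y) : ℚ) ≠ 0 := Nat.cast_ne_zero.mpr Nat.card_pos.ne'
      have hc' : ((S.filter fun x => x ∈ Dv v y).card : ℚ) = (Nat.card (Dv v y) : ℚ) - q := by
        rw [← hc]; push_cast; ring
      rw [hc']
      field_simp
    rw [Finset.sum_congr rfl (fun y _ => this y), Finset.sum_sub_distrib, ← Finset.mul_sum, Finset.sum_const,
      Finset.card_univ, nsmul_eq_mul, mul_comm (Fintype.card Ω : ℚ)]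
  have hconst : ∑ x ∈ S, wt (Ω := Ω) v x = S.card * wt (Ω := Ω) v a := by
    rw [← nsmul_eq_mul, ← Finset.sum_const]
    refine Finset.sum_congr rfl fun x hx => ?_
    exact wt_const hv (mem_perpOut.mp hx).1 (mem_perpOut.mp hx).2 ha ha'
  rw [hconst, hS] at hsum
  set T := ∑ y : Ω, (q : ℚ) / Nat.card (Dv v y) with hT
  have hq0 : (q : ℚ) ≠ 0 := Nat.cast_ne_zero.mpr Fintype.card_ne_zero
  have heq : ((q : ℚ) ^ (2 * m - 2) - 1) * wt (Ω := Ω) v a + T = Fintype.card Ω := by
    refine mul_left_cancel₀ hq0 ?_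
    linarith
  have hle : wt (Ω := Ω) v a ≤ T := by
    rw [wt]
    refine Finset.sum_le_sum fun y _ => ?_
    split_ifs
    · exact le_refl _
    · positivity
  exact ⟨by linarith, heq⟩

/-- Points in distinct orbits with `a` in their annihilator contribute their central indices. -/
theorem le_wt {v a : V} (hv : v ≠ 0) {ι : Type*} (s : Finset ι) (pt : ι → Ω)
    (hdist : ∀ i ∈ s, ∀ j ∈ s, InOrb v (pt i) (pt j) → i = j) (ha : ∀ i ∈ s, a ∈ Dv v (pt i))
    {e : ℕ} (he : ∀ i ∈ s, e * Nat.card (Ac v (pt i)) = Fintype.card F) :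
    ((s.card * e : ℕ) : ℚ) ≤ wt (Ω := Ω) v a := by
  classical
  rw [wt_eq]
  have hsub : s.biUnion (fun i => orbF v (pt i)) ⊆ (Set.toFinite {y : Ω | a ∈ Dv v y}).toFinset := by
    intro z hz
    obtain ⟨i, hi, hzi⟩ := Finset.mem_biUnion.mp hz
    simp only [Set.Finite.mem_toFinset, Set.mem_ofPred_eq]
    rw [Dv_orb (mem_orbF.mp hzi)]
    exact ha i hi
  refine le_trans ?_ (Finset.sum_le_sum_of_subset_of_nonneg hsub fun z _ _ => by positivity)
  rw [Finset.sum_biUnion fun i hi j hj hij => Finset.disjoint_left.mpr fun z hz hz' =>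
    hij (hdist i hi j hj (inOrb_trans (mem_orbF.mp hz) (inOrb_symm (mem_orbF.mp hz'))))]
  rw [Nat.cast_mul, ← nsmul_eq_mul, ← Finset.sum_const]
  refine Finset.sum_le_sum fun i hi => ?_
  rw [Finset.sum_congr rfl fun z hz => show (Fintype.card F : ℚ) / Nat.card (Dv v z) =
    (Fintype.card F : ℚ) / Nat.card (Dv v (pt i)) by rw [Dv_orb (mem_orbF.mp hz)], Finset.sum_const, nsmul_eq_mul,
    mul_div_assoc', le_div_iff₀ (Nat.cast_pos.mpr Nat.card_pos)]
  have h1 := Dv_le_orb hv (pt i)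
  have h2 : e * Nat.card (Dv v (pt i)) ≤ (orbF v (pt i)).card * Fintype.card F := by
    rw [← he i hi]
    calc e * Nat.card (Dv v (pt i)) ≤ e * ((orbF v (pt i)).card * Nat.card (Ac v (pt i))) :=
          Nat.mul_le_mul_left _ h1
      _ = _ := by ring
  exact_mod_cast h2

end Count

end CfsgLib.MinIndexSp
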