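import Cfsg.Agent.MinIndexSp.Orbits

/-!
A rigid point: its annihilator is the whole perpendicular of `v` or inside a plane through `v`, and the
plane is excluded.
-/

set_option autoImplicit false
set_option linter.style.haveILetI false
set_option linter.unusedSectionVars false

namespace CfsgLib.MinIndexSp

open Matrix CfsgLib.SpGeom
open CfsgLib.MinIndexSpTwo (orth mem_orth card_orth card_sub exists_sep mem_of_orth)

variable {F : Type*} [Field F] [Fintype F] {m : ℕ}

local notation "V" => (Fin m ⊕ Fin m → F)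
local notation "Sp" => Matrix.symplecticGroup (Fin m) F
local notation "f" => Cfsg.sympForm m F
local notation "mat" A:max => ((A : Sp) : Matrix (Fin m ⊕ Fin m) (Fin m ⊕ Fin m) F)

theorem mem_pair_orth {v a x : V} : x ∈ orth (Submodule.span F {v, a}) ↔ f x v = 0 ∧ f x a = 0 := by
  rw [mem_orth]
  refine ⟨fun h => ⟨h _ (Submodule.subset_span (by simp)), h _ (Submodule.subset_span (by simp))⟩,
    fun h u hu => ?_⟩
  obtain ⟨s, t, rfl⟩ := Submodule.mem_span_pair.mp hu
  rw [form_add_right, form_smul_right, form_smul_right, h.1, h.2, mul_zero, mul_zero, add_zero]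

theorem form_pair_eq_zero {v a x y : V} (ha : f a v = 0) (hx : x ∈ Submodule.span F {v, a})
    (hy : y ∈ Submodule.span F {v, a}) : f x y = 0 := by
  have hy' : y ∈ orth (Submodule.span F {v, a}) := by
    obtain ⟨s, t, rfl⟩ := Submodule.mem_span_pair.mp hy
    refine mem_pair_orth.mpr ⟨?_, ?_⟩
    · rw [form_add_left, form_smul_left, form_smul_left, form_self, ha, mul_zero, mul_zero, add_zero]
    · rw [form_add_left, form_smul_left, form_smul_left, form_self, form_skew a v, ha, neg_zero,
        mul_zero, mul_zero, add_zero]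
  rw [form_skew, mem_orth.mp hy' x hx, neg_zero]

theorem li_three {v a b : V} (hv : v ≠ 0) (ha : a ∉ Submodule.span F {v})
    (hb : b ∉ Submodule.span F {v, a}) : LinearIndependent F ![v, a, b] := by
  rw [Fintype.linearIndependent_iff]
  intro g hg
  simp only [Fin.sum_univ_three, Matrix.cons_val_zero, Matrix.cons_val_one, Matrix.cons_val_two,
    Matrix.head_cons, Matrix.tail_cons] at hg
  have h2 : g 2 = 0 := by
    by_contra h
    refine hb (Submodule.mem_span_pair.mpr ⟨-(g 0 / g 2), -(g 1 / g 2), ?_⟩)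
    refine smul_right_injective _ h ?_
    simp only [smul_add, smul_smul, mul_neg, mul_div_cancel₀ _ h]
    linear_combination (norm := module) -hg
  rw [h2, zero_smul, add_zero] at hg
  obtain ⟨h0, h1⟩ := LinearIndependent.pair_iff.mp (li_two hv ha) _ _ hg
  intro i
  fin_cases i <;> assumption

variable {Ω : Type*} [MulAction ↥(Matrix.symplecticGroup (Fin m) F) Ω]

/-- Two fixing radical elements with the same vector differ by a fixing central element. -/
theorem sub_mem_Ac {v u : V} {y : Ω} (hu : f u v = 0) {c c' : F} (h : rho v u c • y = y)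
    (h' : rho v u c' • y = y) : c - c' ∈ Ac v y := by
  have e : rho v u c = tv v (c - c') * rho v u c' := by
    rw [← rho_comm hu, tv_eq_rho, rho_mul hu (form_zero_left v), form_zero_left, add_zero, add_zero,
      add_sub_cancel]
  rw [e, mul_smul, h'] at h
  exact mem_Ac.mpr h

/-- Conjugation inside the radical puts the form in the centre. -/
theorem two_form_mem_Ac {v u w : V} {y : Ω} (hu : u ∈ Rb v y) (hw : w ∈ Rb v y) : 2 * f u w ∈ Ac v y := by
  obtain ⟨hu, c, hc⟩ := hu
  obtain ⟨hw, d, hd⟩ := hw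
  have h : rho v u (c + 2 * f u w) • y = y := by
    rw [← rho_conj_rho hu hw c d, mul_smul, mul_smul, inv_smul_eq_iff.mpr hd.symm, hc, hd]
  have := sub_mem_Ac hu h hc
  rwa [add_sub_cancel_left] at this

theorem exists_fix_of_inOrb {v : V} {y : Ω} {g : Sp} (h : InOrb v y (g • y)) :
    ∃ u c, f u v = 0 ∧ (rho v u c * g) • y = y := by
  obtain ⟨u, c, hu, hc⟩ := inOrb_symm h
  exact ⟨u, c, hu, by rw [mul_smul]; exact hc⟩

variable [Fintype Ω] [MulAction.IsPretransitive ↥(Matrix.symplecticGroup (Fin m) F) Ω] [Nontrivial Ω]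
  (hm : 2 ≤ m) (hq : 3 ≤ Fintype.card F)
  (hlt : Fintype.card Ω * (Fintype.card F - 1) < Fintype.card F ^ (2 * m) - 1)

include hm hq hlt

/-- Elements fixing the line through `v` and keeping some vector in the annihilator stay in the orbit. -/
theorem inOrb_of_move {v a : V} (hv : v ≠ 0) (ha' : a ∉ Submodule.span F {v}) {y : Ω}
    (haD : a ∈ Dv v y) {g : Sp} {l : F} (hl : l ≠ 0) (hg : mat g *ᵥ v = l • v)
    (hA : ∀ c, c / l ^ 2 ∈ Ac v y ↔ c ∈ Ac v y) (hga : mat g⁻¹ *ᵥ (l • a) ∈ Dv v y) :
    InOrb v y (g • y) := by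
  refine (rigid_of_lt hm hq hlt hv ha' haD).2 _ ((mem_Dv_smul hl hg).mpr hga) ?_
  ext c
  rw [mem_Ac_smul hl hg, hA]

theorem inOrb_of_fix {v a : V} (hv : v ≠ 0) (ha' : a ∉ Submodule.span F {v}) {y : Ω}
    (haD : a ∈ Dv v y) {g : Sp} (hg : mat g *ᵥ v = v) (hga : mat g⁻¹ *ᵥ a ∈ Dv v y) :
    InOrb v y (g • y) :=
  inOrb_of_move hm hq hlt hv ha' haD one_ne_zero (by rw [hg, one_smul])
    (fun c => by rw [one_pow, div_one]) (by rwa [one_smul])

theorem Dv_invariant {v a : V} (hv : v ≠ 0) (ha' : a ∉ Submodule.span F {v}) {y : Ω}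
    (haD : a ∈ Dv v y) {g : Sp} (hg : mat g *ᵥ v = v) (hga : mat g *ᵥ a = a) {x : V}
    (hx : x ∈ Dv v y) : mat g *ᵥ x ∈ Dv v y := by
  have h := inOrb_of_fix hm hq hlt hv ha' haD hg
    (by rw [show mat g⁻¹ *ᵥ a = a by conv_lhs => rw [← hga, inv_mulVec]]; exact haD)
  rw [← Dv_orb h, mem_Dv_smul one_ne_zero (by rw [hg, one_smul]), one_smul, inv_mulVec]
  exact hx

/-- The vectors with the same product against `a`. -/
theorem Dv_class {v a b x : V} (hv : v ≠ 0) (ha' : a ∉ Submodule.span F {v}) {y : Ω}
    (haD : a ∈ Dv v y) (hbD : b ∈ Dv v y) (hb : b ∉ Submodule.span F {v, a}) (hx0 : f x v = 0)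
    (hxk : f x a = f b a) (hx : x ∉ Submodule.span F {v, a}) : x ∈ Dv v y := by
  have ha := perp_of_mem_Dv haD
  have hb0 := perp_of_mem_Dv hbD
  by_cases hk : f b a = 0
  · have hr : Set.range ![v, a] = ({v, a} : Set V) := by
      simp [Matrix.range_cons, Matrix.range_empty, Set.pair_comm]
    obtain ⟨g, hg, hgb⟩ := exists_fix_move ![v, a] (u := b) (u' := x) (by rwa [hr]) (by rwa [hr])
      (Fin.forall_fin_two.mpr ⟨hb0, hk⟩) (Fin.forall_fin_two.mpr ⟨hx0, hxk.trans hk⟩)
    rw [← hgb]
    exact Dv_invariant hm hq hlt hv ha' haD (hg 0) (hg 1) hbD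
  have step : ∀ {p r : V}, p ∈ Dv v y → f p a = f b a → f r v = 0 → f r a = f b a → f p r ≠ 0 →
      r ∈ Dv v y := by
    intro p r hp hpa hr hra hpr
    have hp0 := perp_of_mem_Dv hp
    have e : mat (tv (r - p) (f p r)⁻¹) *ᵥ p = r := by
      rw [tv_mulVec, form_sub_right, form_self, sub_zero, inv_mul_cancel₀ hpr, one_smul, add_sub_cancel]
    rw [← e]
    refine Dv_invariant hm hq hlt hv ha' haD (tv_fix _ _ ?_) (tv_fix _ _ ?_) hp
    · rw [form_skew, form_sub_left, hr, hp0, sub_zero, neg_zero]
    · rw [form_skew, form_sub_left, hra, hpa, sub_self, neg_zero]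
  by_cases hbx : f b x = 0
  · refine step (p := b + a) (add_mem hbD haD) (by rw [form_add_left, form_self, add_zero]) hx0 hxk ?_
    rw [form_add_left, hbx, zero_add, form_skew, hxk, neg_ne_zero]
    exact hk
  · exact step hbD rfl hx0 hxk hbx

/-- An annihilator leaving the plane is the whole perpendicular. -/
theorem Dv_full {v a b : V} (hv : v ≠ 0) (ha' : a ∉ Submodule.span F {v}) {y : Ω}
    (haD : a ∈ Dv v y) (hbD : b ∈ Dv v y) (hb : b ∉ Submodule.span F {v, a}) :
    ∀ x, f x v = 0 → x ∈ Dv v y := by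
  have main : ∀ {a b : V}, a ∉ Submodule.span F {v} → a ∈ Dv v y → b ∈ Dv v y → f b a ≠ 0 →
      ∀ x, f x v = 0 → x ∈ Dv v y := by
    intro a b ha' haD hbD hk x hx
    have ha := perp_of_mem_Dv haD
    have hb0 := perp_of_mem_Dv hbD
    have outside : ∀ {a b : V}, f a v = 0 → f b a ≠ 0 → b ∉ Submodule.span F {v, a} := fun ha hk h =>
      hk (form_pair_eq_zero ha h (Submodule.subset_span (by simp)))
    have perp : ∀ {a b : V}, a ∉ Submodule.span F {v} → a ∈ Dv v y → b ∈ Dv v y → f b a ≠ 0 →
        ∀ x, f x v = 0 → f x a = 0 → x ∈ Dv v y := by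
      intro a b ha' haD hbD hk x hx hxa
      have ha := perp_of_mem_Dv haD
      have e : f (x + b) a = f b a := by rw [form_add_left, hxa, zero_add]
      have h := Dv_class hm hq hlt hv ha' haD hbD (outside ha hk)
        (x := x + b) (by rw [form_add_left, hx, perp_of_mem_Dv hbD, add_zero]) e
        (outside ha (by rw [e]; exact hk))
      simpa using sub_mem h hbD
    have hb' : b ∉ Submodule.span F {v} := fun h => by
      obtain ⟨t, rfl⟩ := Submodule.mem_span_singleton.mp h
      exact hk (by rw [form_smul_left, form_skew, ha, neg_zero, mul_zero])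
    set t := f x a / f b a with ht
    have h1 : x - t • b ∈ Dv v y := perp ha' haD hbD hk _
      (by rw [form_sub_left, form_smul_left, hx, hb0, mul_zero, sub_zero])
      (by rw [form_sub_left, form_smul_left, ht, div_mul_cancel₀ _ hk, sub_self])
    have h2 : t • b ∈ Dv v y := perp hb' hbD haD (by rw [form_skew, neg_ne_zero]; exact hk) _
      (by rw [form_smul_left, hb0, mul_zero]) (by rw [form_smul_left, form_self, mul_zero])
    simpa using add_mem h1 h2
  by_cases hk : f b a = 0
  · obtain ⟨d, hdb, hd⟩ := exists_sep hb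
    have hdv := hd v (Submodule.subset_span (by simp))
    have hda := hd a (Submodule.subset_span (by simp))
    have hdL : d ∉ Submodule.span F {v, a} := fun h => by
      obtain ⟨s, t, rfl⟩ := Submodule.mem_span_pair.mp h
      rw [form_add_left, form_smul_left, form_smul_left, form_skew b v, perp_of_mem_Dv hbD, neg_zero,
        form_skew b a, hk, neg_zero, mul_zero, mul_zero, add_zero] at hdb
      exact zero_ne_one hdb
    have hdD := Dv_class hm hq hlt hv ha' haD hbD hb hdv (hda.trans hk.symm) hdL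
    refine main (a := b) (b := d) (fun h => hb ?_) hbD hdD (by rw [hdb]; exact one_ne_zero)
    exact Submodule.span_mono (by simp) h
  · exact main ha' haD hbD hk

/-- No isotropic vectors outside the plane are perpendicular to it. -/
theorem orth_le_plane {v a : V} (hv : v ≠ 0) (ha' : a ∉ Submodule.span F {v}) {y : Ω}
    (haD : a ∈ Dv v y) (hD : ∀ x ∈ Dv v y, x ∈ Submodule.span F {v, a}) :
    orth (Submodule.span F {v, a}) ≤ Submodule.span F {v, a} := by
  intro u hu
  by_contra huL
  have ha := perp_of_mem_Dv haD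
  obtain ⟨hu1, hu2⟩ := mem_pair_orth.mp hu
  have hR : ∀ x, f x v = 0 → f x a = 0 → x ∈ Rb v y := fun x h1 h2 => mem_Rb_of_perp_Dv fun d hd =>
    mem_orth.mp (mem_pair_orth.mpr ⟨h1, h2⟩) d (hD d hd)
  obtain ⟨d, hdu, hd⟩ := exists_sep huL
  have hd1 := hd v (Submodule.subset_span (by simp))
  have hd2 := hd a (Submodule.subset_span (by simp))
  by_cases h2 : (2 : F) = 0
  swap
  · refine Ac_top_false hm hq hlt hv (y := y) h2 fun t => ?_
    have := two_form_mem_Ac (hR (t • d) (by rw [form_smul_left, hd1, mul_zero])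
      (by rw [form_smul_left, hd2, mul_zero])) (hR u hu1 hu2)
    rwa [form_smul_left, hdu, mul_one, mul_comm] at this
  have hA0 : Ac v y = ⊥ := (rigid_of_lt hm hq hlt hv ha' haD).1 h2
  have huniq : ∀ {x : V} {c c' : F}, f x v = 0 → rho v x c • y = y → rho v x c' • y = y → c = c' :=
    fun hx h h' => sub_eq_zero.mp (by have := sub_mem_Ac hx h h'; rwa [hA0, AddSubgroup.mem_bot] at this)
  have hscale : ∀ w : V, f w v = 0 → f w a = 0 → w ∉ Submodule.span F {v, a} → ∀ (x c : F),
      rho v w c • y = y → rho v (x • w) (x * c) • y = y := by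
    intro w hw1 hw2 hwL x c hc
    by_cases hx : x = 0
    · rw [hx, zero_smul, zero_mul, rho_zero, one_smul]
    obtain ⟨l, rfl⟩ := exists_sq h2 x
    have hl : l ≠ 0 := fun h => hx (by rw [h, zero_pow two_ne_zero])
    have hli := li_three hv ha' hwL
    have hli' : LinearIndependent F ![l • v, l • a, l • w] := by
      have := hli.units_smul (fun _ => Units.mk0 l hl)
      convert this using 1
      ext i : 1
      fin_cases i <;> simp [Units.smul_def]
    obtain ⟨g, hgv, hga, hgw⟩ := exists_move_three hli ha hw1 hw2 hli'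
      (by simp [form_smul_left, form_smul_right, ha]) (by simp [form_smul_left, form_smul_right, hw1])
      (by simp [form_smul_left, form_smul_right, hw2])
    have horb := inOrb_of_move hm hq hlt hv ha' haD hl hgv
      (fun c => by simp [hA0, hl]) (by rw [← hga, inv_mulVec]; exact haD)
    have h := rho_smul_fix (g := g) hc
    rw [hgv, hgw, rho_smul_left (by rw [form_smul_left, hw1, mul_zero]), smul_smul l l w, ← sq] at h
    obtain ⟨r, d, hr, hgy⟩ := horb
    rw [← hgy] at h
    have hxw : f (l ^ 2 • w) v = 0 := by rw [form_smul_left, hw1, mul_zero]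
    have e := rho_conj_rho hxw hr (l ^ 2 * c) d
    rw [h2, zero_mul, add_zero] at e
    rw [← e, mul_smul, mul_smul, inv_smul_smul] at h
    exact smul_left_cancel _ h
  have hdL : d ∉ Submodule.span F {v, a} := fun h => by
    obtain ⟨s, t, rfl⟩ := Submodule.mem_span_pair.mp h
    rw [form_add_left, form_smul_left, form_smul_left, form_skew u v, hu1, neg_zero, form_skew u a, hu2,
      neg_zero, mul_zero, mul_zero, add_zero] at hdu
    exact zero_ne_one hdu
  have hsum : u + d ∉ Submodule.span F {v, a} := fun h => by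
    obtain ⟨s, t, hst⟩ := Submodule.mem_span_pair.mp h
    have e : f (u + d) u = 0 := by
      rw [← hst, form_add_left, form_smul_left, form_smul_left, form_skew u v, hu1, neg_zero,
        form_skew u a, hu2, neg_zero, mul_zero, mul_zero, add_zero]
    rw [form_add_left, form_self, zero_add, hdu] at e
    exact one_ne_zero e
  obtain ⟨-, cu, hcu⟩ := hR u hu1 hu2
  obtain ⟨-, cd, hcd⟩ := hR d hd1 hd2
  have hs1 : f (u + d) v = 0 := by rw [form_add_left, hu1, hd1, add_zero]
  have hs2 : f (u + d) a = 0 := by rw [form_add_left, hu2, hd2, add_zero]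
  have hcs : rho v (u + d) (cu + cd + 1) • y = y := by
    rw [← hdu, ← rho_mul hu1 hd1, mul_smul, hcd, hcu]
  have hsq : ∀ x : F, x ^ 2 = x := by
    intro x
    have h1 := hscale (u + d) hs1 hs2 hsum x _ hcs
    have h2' : rho v (x • (u + d)) (x * cu + x * cd + x ^ 2) • y = y := by
      have e : x ^ 2 = f (x • d) (x • u) := by rw [form_smul_left, form_smul_right, hdu]; ring
      rw [smul_add, e, ← rho_mul (by rw [form_smul_left, hu1, mul_zero])
        (by rw [form_smul_left, hd1, mul_zero]), mul_smul, hscale d hd1 hd2 hdL x cd hcd,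
        hscale u hu1 hu2 huL x cu hcu]
    have := huniq (by rw [form_smul_left, hs1, mul_zero]) h1 h2'
    linear_combination -this
  classical
  have hsub : (Finset.univ : Finset F) ⊆ {0, 1} := fun x _ => by
    have h := hsq x
    rw [sq] at h
    rcases eq_or_ne x 0 with h0 | h0
    · simp [h0]
    · simp [mul_left_cancel₀ h0 (h.trans (mul_one x).symm)]
  have hc := (Finset.card_le_card hsub).trans Finset.card_le_two
  rw [Finset.card_univ] at hc
  omega

end CfsgLib.MinIndexSp
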